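import Mathlib
import Cfsg.Agent.K3P.Defs
import Cfsg.Agent.K3P.Bas
import Cfsg.Agent.GT.Fitting
import Cfsg.Agent.GT.PConstrained
import Cfsg.Agent.Ch.Burnside
import Cfsg.Agent.FG.H93Cyc
import Cfsg.Agent.GT.FourGroup

/-! The 2-core of the centraliser of an involution (PLAN: Cen). -/

set_option autoImplicit false
set_option linter.unusedSectionVars false
open Cfsg Subgroup

namespace Cfsg.Agent.K3P

variable {G : Type*} [Group G] [Finite G] {p : ℕ}

namespace Cen

section Abs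

variable {H : Type*} [Group H] [Finite H]

theorem cyc_surj {H' : Type*} [Group H'] (f : H →* H') (hf : Function.Surjective f)
    (h : ∀ Y : Subgroup H, IsPGroup 3 Y → IsCyclic Y) (Y : Subgroup H') (hY : IsPGroup 3 Y) :
    IsCyclic Y := by
  have : Fact (Nat.Prime 3) := ⟨Nat.prime_three⟩
  have : Finite H' := Finite.of_surjective f hf
  obtain ⟨P', hP'⟩ := hY.exists_le_sylow
  obtain ⟨P, rfl⟩ := Sylow.mapSurjective_surjective hf 3 P'
  have := h P P.isPGroup'
  have : IsCyclic ((P : Subgroup H).map f) :=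
    isCyclic_of_surjective _ (f.subgroupMap_surjective (P : Subgroup H))
  exact Subgroup.isCyclic_of_le (H' := (P : Subgroup H).map f) hP'

theorem eq_one_of {a : H} {i j : ℕ} (h2 : a ^ 2 ^ i = 1) (h3 : a ^ 3 ^ j = 1) : a = 1 := by
  have := pow_gcd_eq_one.2 ⟨h2, h3⟩
  rwa [Nat.Coprime.gcd_eq_one (Nat.Coprime.pow i j (by norm_num)), pow_one] at this

theorem cen_le {i j : ℕ} (hc : Nat.card H ∣ 3 ^ i * 2 ^ j) (h2 : pCore 2 H = ⊥) :
    centralizer (pCore 3 H : Set H) ≤ pCore 3 H := by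
  have := Ch.burnside_isSolvable_of_card_dvd Nat.prime_three Nat.prime_two hc
  have h3 : pPrimeCore 3 H = ⊥ := by
    rw [pPrimeCore, sSup_eq_bot]
    rintro N ⟨hN, hco⟩
    have h4 : Nat.card N ∣ 2 ^ j :=
      (Nat.Coprime.pow_right i hco).dvd_of_dvd_mul_left ((card_subgroup_dvd_card N).trans hc)
    obtain ⟨k, -, hk⟩ := (Nat.dvd_prime_pow Nat.prime_two).1 h4
    exact GT.pCore_eq_bot_iff.1 h2 N hN (IsPGroup.of_card hk)
  rw [← GT.fitting_eq_pCore Nat.prime_three h3]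
  exact GT.centralizer_fitting_le

theorem card_le {i j : ℕ} (hc : Nat.card H ∣ 3 ^ i * 2 ^ j) (h2 : pCore 2 H = ⊥)
    (h : ∀ Y : Subgroup H, IsPGroup 3 Y → IsCyclic Y) {X : Subgroup H} (hX : IsPGroup 2 X) :
    Nat.card X ≤ 2 := by
  have : Fact (Nat.Prime 3) := ⟨Nat.prime_three⟩
  have : Fact (Nat.Prime 2) := ⟨Nat.prime_two⟩
  have h3 := GT.isPGroup_pCore (G := H) 3
  have := h _ h3
  let f : X →* MulAut (pCore 3 H) := (MulAut.conjNormal (H := pCore 3 H)).comp X.subtype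
  have hf : Function.Injective f := (injective_iff_map_eq_one f).2 fun a ha => by
    have h4 : (a : H) ∈ pCore 3 H := cen_le hc h2 (mem_centralizer_iff.2 fun z hz => by
      have := congrArg (fun θ : MulAut (pCore 3 H) => (θ ⟨z, hz⟩ : H)) ha
      change (a : H) * z * (a : H)⁻¹ = z at this
      exact (mul_inv_eq_iff_eq_mul.1 this).symm)
    obtain ⟨k, hk⟩ := hX a
    obtain ⟨l, hl⟩ := h3 ⟨a, h4⟩
    exact Subtype.ext (eq_one_of (congrArg Subtype.val hk) (congrArg Subtype.val hl))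
  have h5 := card_dvd_of_injective f hf
  obtain ⟨n, hn⟩ := h3.exists_card_eq
  obtain ⟨m, hm⟩ := hX.exists_card_eq
  rw [IsCyclic.card_mulAut, hn, hm] at h5
  rw [hm]
  rcases n with _ | n
  · exact (Nat.le_of_dvd one_pos (by simpa using h5)).trans (by norm_num)
  · rw [Nat.totient_prime_pow_succ Nat.prime_three] at h5
    exact Nat.le_of_dvd two_pos
      ((Nat.Coprime.pow m n (by norm_num : Nat.Coprime 2 3)).dvd_of_dvd_mul_left h5)

theorem eq_bot {i j : ℕ} (hc : Nat.card H ∣ 3 ^ i * 2 ^ j) (h2 : pCore 2 H = ⊥)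
    (h : ∀ Y : Subgroup H, IsPGroup 3 Y → IsCyclic Y) {X : Subgroup H} (hX : IsPGroup 2 X) {y : H}
    (hy : orderOf y = 3) (hn : y ∈ normalizer (X : Set H)) : X = ⊥ := by
  have : Fact (Nat.Prime 3) := ⟨Nat.prime_three⟩
  have h3 := GT.isPGroup_pCore (G := H) 3
  have hN : (pCore 3 H).Normal := inferInstance
  have := h _ h3
  have yF : y ∈ pCore 3 H := by
    have h4 := h _ ((isP_zpowers hy).to_sup_of_normal_right h3)
    refine cen_le hc h2 (mem_centralizer_iff.2 fun z hz => ?_)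
    exact congrArg Subtype.val (h4.commGroup.mul_comm ⟨z, mem_sup_right hz⟩
      ⟨y, mem_sup_left (mem_zpowers y)⟩)
  have one : ∀ a ∈ X, a ∈ pCore 3 H → a = 1 := fun a ha h4 => by
    obtain ⟨k, hk⟩ := hX ⟨a, ha⟩
    obtain ⟨l, hl⟩ := h3 ⟨a, h4⟩
    exact eq_one_of (congrArg Subtype.val hk) (congrArg Subtype.val hl)
  rw [eq_bot_iff_forall]
  intro a ha
  have aa : a * a = 1 := by
    have h5 := card_le hc h2 h hX
    have h6 := X.orderOf_dvd_natCard ha
    have h7 : 0 < Nat.card X := Nat.card_pos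
    rw [← sq, ← orderOf_dvd_iff_pow_eq_one]
    refine h6.trans ?_
    interval_cases Nat.card X <;> norm_num
  have ay : a * y * a⁻¹ = y := by
    rw [← mul_inv_eq_one]
    refine one _ ?_ (mul_mem (hN.conj_mem y yF a) (inv_mem yF))
    rw [mul_assoc, mul_assoc, ← mul_assoc y]
    exact mul_mem ha ((mem_normalizer_iff.1 hn _).1 (inv_mem ha))
  refine one a ha (cen_le hc h2 (mem_centralizer_iff.2 fun z hz => ?_))
  have ai : a⁻¹ = a := inv_eq_of_mul_eq_one_right aa
  have dF : z * (a * z⁻¹ * a⁻¹) ∈ pCore 3 H := mul_mem hz (hN.conj_mem _ (inv_mem hz) a)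
  have hd : a * (z * (a * z⁻¹ * a⁻¹)) * a⁻¹ = (z * (a * z⁻¹ * a⁻¹))⁻¹ := by
    rw [ai, show a * (z * (a * z⁻¹ * a)) * a = a * z * a * z⁻¹ * (a * a) by group, aa, mul_one,
      mul_inv_rev, mul_inv_rev, mul_inv_rev, ai, inv_inv, mul_assoc a z]
  by_contra hne
  have d1 : z * (a * z⁻¹ * a⁻¹) ≠ 1 := fun e => hne (by
    calc z * a = z * (a * z⁻¹ * a⁻¹) * (a * z) := by group
      _ = a * z := by rw [e, one_mul])
  obtain ⟨k, hk⟩ := FG.H93.mem_zpowers_of_orderOf_dvd_of_mem yF dF (by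
    rw [hy]
    have := h3.dvd_orderOf (g := ⟨_, dF⟩) fun e => d1 (congrArg Subtype.val e)
    rwa [orderOf_mk] at this)
  have h8 : y⁻¹ = y := by
    have hk' : (z * (a * z⁻¹ * a⁻¹)) ^ k = y := hk
    rw [← hk', ← conj_zpow, hd, inv_zpow] at ay
    rw [← hk']; exact ay
  have h9 : y ^ 2 = 1 := by rw [sq]; exact mul_eq_one_iff_inv_eq.2 h8
  have := orderOf_dvd_of_pow_eq_one h9
  rw [hy] at this
  norm_num at this

end Abs

theorem card_dvd (h : Th G p) {t : G} (ht : orderOf t = 2) :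
    ∃ i j, Nat.card (Cn t) = 3 ^ i * 2 ^ j := by
  have := Fact.mk h.shape.prime
  refine h.shape.of_not_dvd (card_subgroup_dvd_card _) fun hp => ?_
  obtain ⟨x, hx⟩ := exists_prime_orderOf_dvd_card' p hp
  have := h.fpf (x := x) (v := t) (by rwa [orderOf_coe]) (mem_Cn.1 x.2).symm
    ⟨1, by rw [pow_one, ← ht, pow_orderOf_eq_one]⟩
  rw [this, orderOf_one] at ht
  norm_num at ht

theorem norm_eq {t : G} (ht : orderOf t = 2) : normalizer (zpowers t : Set G) = Cn t := by
  refine le_antisymm (fun g hg => ?_) fun g hg => ?_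
  · have h1 := (mem_normalizer_iff.1 hg t).1 (mem_zpowers t)
    rcases GT.eq_one_or_eq_of_mem_zpowers_of_sq (by rw [← ht, pow_orderOf_eq_one]) h1 with e | e
    · rw [conj_eq_one_iff] at e
      rw [e, orderOf_one] at ht
      norm_num at ht
    · exact mem_centralizer_singleton_iff.2 (mul_inv_eq_iff_eq_mul.1 e)
  · refine centralizer_le_normalizer _ (mem_centralizer_iff.2 ?_)
    rintro _ ⟨k, rfl⟩
    exact ((mem_Cn.1 hg).zpow_left k).eq

theorem cyc (h : Th G p) {t : G} (ht : orderOf t = 2) (Y : Subgroup (Cn t ⧸ pCore 2 (Cn t)))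
    (hY : IsPGroup 3 Y) : IsCyclic Y := by
  refine cyc_surj _ (QuotientGroup.mk'_surjective _) (fun Y hY => ?_) Y hY
  have := h.cyc3 (isP_zpowers ht) (fun e => by
    rw [zpowers_eq_bot] at e
    rw [e, orderOf_one] at ht
    norm_num at ht) (hY.map (Cn t).subtype) ((map_subtype_le Y).trans (norm_eq ht).ge)
  exact isCyclic_of_injective (Y.equivMapOfInjective _ (Cn t).subtype_injective).toMonoidHom
    (MulEquiv.injective _)

end Cen

open Cen

theorem two_DD (t : G) : IsPGroup 2 (DD t) := GT.isPGroup_pCoreOf 2 _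

theorem DD_le (t : G) : DD t ≤ Cn t := GT.pCoreOf_le _

theorem nDD (t : G) : Cn t ≤ normalizer (DD t : Set G) := GT.le_normalizer_pCoreOf _

theorem mem_DD {t : G} (ht : orderOf t = 2) : t ∈ DD t :=
  GT.le_pCoreOf (zpowers_le.2 (mem_Cn.2 (Commute.refl t))) (norm_eq ht).ge (isP_zpowers ht)
    (mem_zpowers t)

theorem Th.charC (h : Th G p) {t : G} (ht : orderOf t = 2) : IsOfCharacteristicTwo (Cn t) := by
  rw [← norm_eq ht]
  refine h.c2.2 _ (isP_zpowers ht) fun e => ?_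
  rw [zpowers_eq_bot] at e
  rw [e, orderOf_one] at ht
  norm_num at ht

theorem Th.cen_DD (h : Th G p) {t : G} (ht : orderOf t = 2) : centralizer (DD t : Set G) ≤ DD t :=
  fun _ hg => GT.charP_iff_pCoreOf.1 (h.charC ht)
    ⟨mem_centralizer_singleton_iff.2 (mem_centralizer_iff.1 hg t (mem_DD ht)).symm, hg⟩

theorem Th.idx (h : Th G p) {t : G} (ht : orderOf t = 2) {X : Subgroup G} (hX : IsPGroup 2 X)
    (hC : X ≤ Cn t) : Nat.card X ≤ 2 * Nat.card (X ⊓ DD t : Subgroup G) := by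
  obtain ⟨i, j, hc⟩ := card_dvd h ht
  let f : X →* Cn t ⧸ pCore 2 (Cn t) := (QuotientGroup.mk' _).comp (inclusion hC)
  have h1 := card_le (hc ▸ card_quotient_dvd_card _) GT.pCore_quotient_pCore (cyc h ht)
    (X := f.range) (hX.of_surjective _ f.rangeRestrict_surjective)
  have h2 : f.ker = (X ⊓ DD t).subgroupOf X := by
    ext a
    rw [MonoidHom.mem_ker, inf_subgroupOf_left, mem_subgroupOf]
    change ((inclusion hC a : Cn t) : Cn t ⧸ pCore 2 (Cn t)) = 1 ↔ _
    rw [QuotientGroup.eq_one_iff, ← GT.pCoreOf_subgroupOf, mem_subgroupOf]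
    rfl
  rw [← f.ker.index_mul_card, index_ker, h2, Nat.card_congr (subgroupOfEquivOfLe inf_le_left).toEquiv]
  exact Nat.mul_le_mul_right _ h1

theorem Th.le_DD (h : Th G p) {t y : G} (ht : orderOf t = 2) (hy : orderOf y = 3) (hyt : y ∈ Cn t)
    {X : Subgroup G} (hX : IsPGroup 2 X) (hC : X ≤ Cn t) (hn : y ∈ normalizer (X : Set G)) :
    X ≤ DD t := by
  have : Fact (Nat.Prime 3) := ⟨Nat.prime_three⟩
  obtain ⟨i, j, hc⟩ := card_dvd h ht
  have h3 : y ^ 3 = 1 := by rw [← hy, pow_orderOf_eq_one]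
  have h1 := eq_bot (hc ▸ card_quotient_dvd_card _) GT.pCore_quotient_pCore (cyc h ht)
    (X := (X.subgroupOf (Cn t)).map (QuotientGroup.mk' _)) ((hX.comap_subtype).map _)
    (y := QuotientGroup.mk' _ (⟨y, hyt⟩ : Cn t)) (orderOf_eq_prime (by
      rw [← map_pow]; exact (congrArg _ (Subtype.ext h3)).trans (map_one _)) fun e => by
        obtain ⟨k, hk⟩ := GT.isPGroup_pCore 2 ⟨_, (QuotientGroup.eq_one_iff _).1 e⟩
        have h4 : y = 1 := eq_one_of (i := k) (j := 1)
          (congrArg Subtype.val (congrArg Subtype.val hk)) h3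
        rw [h4, orderOf_one] at hy
        norm_num at hy)
    (le_normalizer_map _ (mem_map_of_mem _ (by
      rw [← subgroupOf_normalizer_eq hC]; exact hn)))
  rw [Subgroup.map_eq_bot_iff, QuotientGroup.ker_mk'] at h1
  exact GT.le_map_subtype_of_subgroupOf_le hC h1

end Cfsg.Agent.K3P
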