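import Mathlib
import Cfsg.Agent.K3P.Defs
import Cfsg.Agent.K3P.Bas
import Cfsg.Agent.K3P.Cen
import Cfsg.Agent.GT.PiGroups
import Cfsg.Agent.Loc.MssSyl

/-! The case `K / Q = SL(2, q)`: weak closure. -/

set_option autoImplicit false
set_option linter.unusedSectionVars false
open Cfsg Subgroup

namespace Cfsg.Agent.K3P

open Cfsg.Agent.GT Cfsg.Agent.Loc.Mss

variable {G : Type*} [Group G] [Finite G] {p q : ℕ} {M Q K : Subgroup G}

theorem a1_syl_card {T L : Subgroup G} (h : Syl 2 T L) {j n : ℕ} (hn : Odd n)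
    (hL : Nat.card L = 2 ^ j * n) : Nat.card T = 2 ^ j := by
  obtain ⟨k, hk⟩ := IsPGroup.iff_card.1 h.pg
  have e := card_mul_relIndex h.le
  rw [hk, hL] at e
  have c1 : Nat.Coprime (2 ^ k) n := (Nat.coprime_two_left.2 hn).pow_left k
  have c2 : Nat.Coprime (2 ^ j) (T.relIndex L) :=
    ((Nat.Prime.coprime_iff_not_dvd Nat.prime_two).2 h.nd).pow_left j
  rw [hk]
  exact Nat.dvd_antisymm (c1.dvd_of_dvd_mul_right ⟨_, e.symm⟩) (c2.dvd_of_dvd_mul_right ⟨_, e⟩)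

theorem CA.a1_two (c : CA p q M Q K) : IsPGroup 2 Q := two_of_el c.el

theorem CA.a1_MQ (c : CA p q M Q K) : M ≤ 𝐍[Q] := c.nQ.ge

theorem CA.a1_four (c : CA p q M Q K) : 4 ≤ q := by
  rcases c.pq with ⟨-, rfl⟩ | ⟨-, rfl⟩ <;> norm_num

theorem CA.a1_cardM (c : CA p 4 M Q K) (h : K.relIndex M = 2) {T : Subgroup G} (hT : Syl 2 T M) :
    Nat.card T = 8 * Nat.card Q := by
  obtain ⟨a, ha⟩ := IsPGroup.iff_card.1 c.a1_two
  rw [a1_syl_card hT (j := a + 3) (n := 15) (by decide)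
    (by rw [← card_mul_relIndex c.KM, h, c.cardK, ha]; ring), ha]
  ring

theorem CA.conj (c : CA p q M Q K) (g : G) : CA p q (M ^ᶜ g) (Q ^ᶜ g) (K ^ᶜ g) where
  pq := c.pq
  el := el_conj c.el g
  nQ := by rw [← cj_norm, c.nQ]
  cen := by rw [← cj_cent]; exact cj_mono g c.cen
  QK := cj_mono g c.QK
  KM := cj_mono g c.KM
  nK := by rw [← cj_norm]; exact cj_mono g c.nK
  cardK := by rw [card_cj, card_cj, c.cardK]
  free := fun a ha hq h2 => by
    obtain ⟨b, hb, rfl⟩ := mem_map_conj_iff_exists.1 ha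
    rw [conj_mem_map_conj] at hq
    rw [conj_mul, conj_mem_map_conj] at h2
    rw [Cn, centralizer_singleton_conj, ← cj_inf, card_cj, card_cj]
    exact c.free b hb hq h2
  syl := fun X h1 h2 h3 => by
    obtain ⟨X, rfl⟩ : ∃ Y, X = Y ^ᶜ g := ⟨_, (cj_cj_inv X g).symm⟩
    rw [card_cj, card_cj] at h3
    obtain ⟨h4, k, hk, nk, ok, h5⟩ := c.syl X (cj_le_cj.1 h1) (cj_le_cj.1 h2) h3
    refine ⟨fun a ha => ?_, g * k * g⁻¹, conj_mem_cj hk, ?_, by rw [orderOf_conj, ok], ?_⟩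
    · obtain ⟨b, hb, rfl⟩ := mem_map_conj_iff_exists.1 ha
      rw [conj_mul]
      exact conj_mem_cj (h4 b hb)
    · rw [← cj_norm]; exact conj_mem_cj nk
    · rw [Cn, centralizer_singleton_conj, ← cj_inf, cj_eq_bot]; exact h5
  idx := by
    rw [relIndex_map_conj]
    refine c.idx.imp_right fun ⟨h1, h2, w, hw, ⟨k, tw⟩, h3⟩ =>
      ⟨h1, h2, g * w * g⁻¹, conj_mem_cj hw, ⟨k, by rw [conj_pow, tw]; simp⟩, ?_⟩
    rwa [conj_mul, conj_mem_map_conj]
  cardQ := by rw [card_cj]; exact c.cardQ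

/-- A 2-subgroup of `K` lies in a Sylow 2-subgroup of `K`. -/
theorem CA.sylK (c : CA p q M Q K) {X : Subgroup G} (hX : IsPGroup 2 X) (hK : X ≤ K) :
    ∃ T : Subgroup G, X ≤ T ∧ Q ≤ T ∧ T ≤ K ∧ IsPGroup 2 T ∧ Nat.card T = q * Nat.card Q := by
  obtain ⟨T, hT, sT⟩ := Syl.exists_ge (pg_sup hX c.a1_two (hK.trans (c.KM.trans c.a1_MQ)))
    (sup_le hK c.QK)
  refine ⟨T, le_sup_left.trans hT, le_sup_right.trans hT, sT.le, sT.pg, ?_⟩
  obtain ⟨a, ha⟩ := IsPGroup.iff_card.1 c.a1_two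
  have e := c.cardK
  rcases c.pq with ⟨-, rfl⟩ | ⟨-, rfl⟩
  · rw [a1_syl_card sT (j := a + 2) (n := 15) (by decide) (by rw [e, ha]; ring), ha]; ring
  · rw [a1_syl_card sT (j := a + 3) (n := 63) (by decide) (by rw [e, ha]; ring), ha]; ring

theorem CA.le_K (c : CA p q M Q K) (ho : Odd (K.relIndex M)) {X : Subgroup G} (hX : IsPGroup 2 X)
    (hM : X ≤ M) : X ≤ K := by
  obtain ⟨k, hk⟩ := IsPGroup.iff_card.1 hX
  have h1 : K.relIndex X ∣ K.relIndex M := by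
    rw [← relIndex_sup_of_le_normalizer (hM.trans c.nK)]
    exact ⟨_, (relIndex_mul_relIndex _ _ _ le_sup_right (sup_le hM c.KM)).symm⟩
  have h2 : K.relIndex X ∣ 2 ^ k := hk ▸ relIndex_dvd_card K X
  exact relIndex_eq_one.1
    (Nat.eq_one_of_dvd_coprimes ((Nat.coprime_two_right.2 ho).pow_right k) h1 h2)

theorem CA.rk (c : CA p q M Q K) {A : Subgroup G} (hA : A ≤ M) (h2 : ∀ a ∈ A, a * a ∈ Q) :
    Nat.card A ≤ q * Nat.card (A ⊓ Q : Subgroup G) := by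
  have nA := hA.trans c.a1_MQ
  have pA : IsPGroup 2 A := two_of_tw fun a ha => ⟨2, by
    rw [show 2 ^ 2 = 2 * 2 from rfl, pow_mul, pow_two, pow_two]
    exact el_sq c.el (h2 a ha)⟩
  have pB := pg_sup pA c.a1_two nA
  have BM : A ⊔ Q ≤ M := sup_le hA (c.QK.trans c.KM)
  have key : Nat.card (A ⊔ Q : Subgroup G) ≤ q * Nat.card Q := by
    rcases c.idx with ho | ⟨rfl, hi, w, hw, ⟨k, tw⟩, hn⟩
    · obtain ⟨T, hT, -, -, -, e⟩ := c.sylK pB (c.le_K ho pB BM)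
      exact e ▸ card_le_of_le hT
    · obtain ⟨T, hT, sT⟩ := Syl.exists_ge pB BM
      have e := c.a1_cardM hi sT
      have hne : A ⊔ Q ≠ T := by
        rintro rfl
        obtain ⟨g, hg, hle⟩ := sT.conj_le (P := zpowers w)
          (two_of_tw fun a ⟨j, hj⟩ => ⟨k, by
            rw [← hj]; dsimp only; rw [← zpow_natCast, ← zpow_mul, mul_comm, zpow_mul,
              zpow_natCast, tw, one_zpow]⟩) (zpowers_le.2 hw)
        obtain ⟨a, ha, b, hb, e1⟩ := (mem_sup_norm' nA).1 (hle (conj_mem_cj (mem_zpowers w)))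
        have h3 : a * b * (a * b) ∈ Q := by
          rw [show a * b * (a * b) = a * a * (a⁻¹ * b * a) * b by group]
          exact mul_mem (mul_mem (h2 a ha) (conj_mem_of_norm' (nA ha) hb)) hb
        rw [e1, conj_mul] at h3
        have h4 := conj_mem_of_norm' (c.a1_MQ hg) h3
        exact hn (by simpa [mul_assoc] using h4)
      obtain ⟨m, hm⟩ := card_dvd_of_le hT
      have m1 : m ≠ 1 := fun e1 => hne (eq_of_le_of_card_ge hT (by rw [hm, e1, mul_one]))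
      have m0 : m ≠ 0 := fun e1 => by
        rw [e1, mul_zero] at hm; exact Nat.card_pos.ne' hm
      have : 2 ≤ m := by omega
      nlinarith
  have e := card_sup_mul_card_inf_of_le_normalizer nA
  have hq : 0 < Nat.card Q := Nat.card_pos
  refine Nat.le_of_mul_le_mul_right ?_ hq
  rw [← e]
  nlinarith [Nat.zero_le (Nat.card (A ⊓ Q : Subgroup G))]

theorem CA.a1_big (c : CA p q M Q K) : q ^ 2 ≤ Nat.card Q := by
  rcases c.cardQ with e | e <;> omega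

/-- The centre of a Sylow 2-subgroup of `K` meets `Q` in a group of order at least four. -/
theorem CA.four_le (c : CA p q M Q K) {T : Subgroup G} (h1 : Q ≤ T) (h2 : T ≤ K)
    (h3 : Nat.card T = q * Nat.card Q) :
    q ≤ Nat.card (Q ⊓ centralizer (T : Set G) : Subgroup G) := by
  obtain ⟨h4, k, hk, nk, ok, h5⟩ := c.syl T h1 h2 h3
  have pT : IsPGroup 2 T := two_of_tw fun a ha => ⟨2, by
    rw [show 2 ^ 2 = 2 * 2 from rfl, pow_mul, pow_two, pow_two]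
    exact el_sq c.el (h4 a ha)⟩
  have q4 := c.a1_four
  have hb : ⊥ < Q := bot_lt_iff_ne_bot.2 fun e => by
    have := c.a1_big
    rw [e, card_bot] at this
    nlinarith
  obtain ⟨w, hw, w1, hc⟩ := exists_fix pT c.a1_two hb (h2.trans (c.KM.trans c.a1_MQ))
    (norm_normal _ _) (norm_normal _ _)
  have hZ : 1 < Nat.card (Q ⊓ 𝐂[T] : Subgroup G) := by
    refine (one_lt_card_iff_ne_bot _).2 fun e => w1 (e ▸ ⟨hw, mem_cent.2 fun d hd => ?_⟩)
    have := mem_bot.1 (hc d hd)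
    rwa [mul_inv_eq_one, mul_inv_eq_iff_eq_mul] at this
  have hn : k ∈ 𝐍[Q ⊓ 𝐂[T]] := zpowers_le.1
    (norm_inf (zpowers_le.2 (c.a1_MQ (c.KM hk))) (norm_cent (zpowers_le.2 nk)))
  have hb' : Q ⊓ 𝐂[T] ⊓ Cn k = ⊥ :=
    le_bot_iff.1 (h5 ▸ inf_le_inf_right _ (inf_le_left.trans h1))
  rcases c.pq with ⟨-, rfl⟩ | ⟨-, rfl⟩
  · have := card_mod_cn (r := 3) (by norm_num) ok hn
    rw [hb', card_bot] at this
    omega
  · have := card_mod_cn (r := 7) (by norm_num) ok hn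
    rw [hb', card_bot] at this
    omega

theorem CA.a1_sq (c : CA p q M Q K) {A : Subgroup G} (hA : IsElementaryAbelian 2 A) (hM : A ≤ M)
    (hn : ¬ A ≤ Q) : Nat.card A ^ 2 ≤ q ^ 2 * Nat.card Q := by
  obtain ⟨a, ha, aQ⟩ := SetLike.not_le_iff_exists.1 hn
  have h1 := c.free a (hM ha) aQ (el_sq hA ha ▸ one_mem _)
  have h2 : Nat.card (A ⊓ Q : Subgroup G) ≤ Nat.card (Q ⊓ Cn a : Subgroup G) :=
    card_le_of_le fun b hb => ⟨hb.2, mem_Cn.2 (el_comm hA ha hb.1)⟩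
  have h3 := c.rk hM fun b hb => el_sq hA hb ▸ one_mem _
  rw [← h1, ← mul_pow]
  exact Nat.pow_le_pow_left (h3.trans (Nat.mul_le_mul_left _ h2)) 2

theorem CA.small (c : CA p q M Q K) {g : G} (h1 : Q ^ᶜ g ≤ M) (h2 : Q ^ᶜ g ≠ Q) :
    Nat.card Q = q ^ 2 := by
  have h3 := c.a1_sq (el_conj c.el g) h1 fun e => h2 (cj_eq_of_le e)
  rw [card_cj, pow_two] at h3
  exact le_antisymm (Nat.le_of_mul_le_mul_right h3 Nat.card_pos) c.a1_big

theorem CA.wcl (h : Th G p) (c : CA p q M Q K) (wc : ∀ g : G, Q ^ᶜ g ≤ M → Q ^ᶜ g = Q) :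
    WCl Q := by
  intro v hv v1 g hg
  have q4 := c.a1_four
  have big := c.a1_big
  have c' := c.conj g
  have ov := ord_two (el_sq c.el hv) v1
  have up : ∀ X : Subgroup G, IsPGroup 2 X → Q ≤ X → X ≤ M := fun X hX hQ =>
    c.nQ ▸ wc_le (c.nQ ▸ wc) hX hQ
  have up' : ∀ X : Subgroup G, IsPGroup 2 X → Q ^ᶜ g ≤ X → X ≤ M ^ᶜ g := fun X hX hQ =>
    le_cj_iff_inv_le.2 (up _ (pg_cj hX _) (cj_le_iff_le_inv.1 hQ))
  have el : ∀ {A B : Subgroup G}, IsElementaryAbelian 2 B → A ≤ B → IsElementaryAbelian 2 A :=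
    fun hB hle => el_of_sq fun a ha => el_sq hB (hle ha)
  have fin : ∀ U : Subgroup G, U ≤ Q → U ≤ Q ^ᶜ g → 4 ≤ Nat.card U → Q ^ᶜ g = Q := by
    intro U h1 h2 h4
    refine wc g (le_trans (fun a ha => mem_cent.2 fun u hu => el_comm c'.el (h2 hu) ha)
      (up _ (h.cent_two (el c.el h1) h4) fun a ha => mem_cent.2 fun u hu => el_comm c.el (h1 hu) ha))
  have DM : DD v ≤ M := le_sup_left.trans (up _ (pg_sup' (two_DD v) c.a1_two
    (le_trans (fun a ha => mem_Cn.2 (el_comm c.el hv ha)) (nDD v))) le_sup_right)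
  have hi := h.idx ov c'.a1_two hg
  rw [card_cj] at hi
  set A := Q ^ᶜ g ⊓ DD v with hA
  have eA : IsElementaryAbelian 2 A := el c'.el inf_le_left
  have AM : A ≤ M := inf_le_right.trans DM
  have A4 : 4 ≤ Nat.card A := by nlinarith
  by_cases hle : A ≤ Q
  · exact fin A hle inf_le_left A4
  have e : Nat.card Q = q ^ 2 := by
    refine c.cardQ.resolve_right fun hlt => ?_
    have h3 := c.a1_sq eA AM hle
    have h4 : Nat.card Q ^ 2 ≤ (2 * Nat.card A) ^ 2 := Nat.pow_le_pow_left hi 2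
    have h5 : 0 < Nat.card Q := Nat.card_pos
    nlinarith
  rcases c.idx with ho | ⟨rfl, h2, -⟩
  · obtain ⟨T, hT, h1, h2, -, h3⟩ := c.sylK (two_of_el eA) (c.le_K ho (two_of_el eA) AM)
    have h4 := c.four_le h1 h2 h3
    refine fin _ inf_le_left (fun z hz => by_contra fun zn => ?_) (q4.trans h4)
    have zA : z ∈ 𝐂[A] := cent_anti hT hz.2
    have h5 := c'.free z (up' _ (h.cent_two eA A4)
      (fun a ha => mem_cent.2 fun u hu => el_comm c'.el hu.1 ha) zA) zn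
      (el_sq c.el hz.1 ▸ one_mem _)
    rw [card_cj, e] at h5
    have h6 : Nat.card A ≤ Nat.card (Q ^ᶜ g ⊓ Cn z : Subgroup G) :=
      card_le_of_le fun a ha => ⟨ha.1, mem_Cn.2 (mem_cent.1 zA a ha).symm⟩
    rw [(pow_left_inj₀ (Nat.zero_le _) (Nat.zero_le _) two_ne_zero).1 h5] at h6
    nlinarith
  · obtain ⟨S, hS⟩ := c.a1_two.exists_le_sylow
    have h3 := c.a1_cardM h2 (Syl.of_sylow_le S (up _ S.isPGroup' hS))
    refine absurd (by rw [h3, e]; norm_num) (h.n128 ?_ S)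
    rcases c.pq with ⟨rfl, -⟩ | ⟨rfl, -⟩ <;> norm_num

end Cfsg.Agent.K3P
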