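import Mathlib
import Cfsg.Agent.K3P.Bas
import Cfsg.Agent.GT.PiGroups
import Cfsg.Agent.GT.PGroupAlperin
import Cfsg.Agent.GT.TransferSylow

/-! A swapped pair of elementary abelian subgroups is impossible. -/

set_option autoImplicit false
open Cfsg Subgroup

namespace Cfsg.Agent.K3P

variable {G : Type*} [Group G] [Finite G] {p q : ℕ} {Q R : Subgroup G} {k g : G}

namespace A7

theorem le_or (eQ : IsElementaryAbelian 2 Q) (eR : IsElementaryAbelian 2 R)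
    (RQ : R ≤ normalizer (Q : Set G)) (nc : ∀ w ∈ Q, ∀ r ∈ R, Commute w r → w ∈ R ∨ r ∈ Q)
    {E : Subgroup G} (hE : E ≤ Q ⊔ R) (h2 : ∀ a ∈ E, a * a = 1) : E ≤ Q ∨ E ≤ R := by
  refine SubgroupClass.subset_union.1 fun a ha => ?_
  have h1 : a ∈ ((Q ⊔ R : Subgroup G) : Set G) := hE ha
  rw [coe_mul_of_right_le_normalizer_left _ _ RQ] at h1
  obtain ⟨w, hw, r, hr, rfl⟩ := h1
  have h3 : w * r = r * w := by
    rw [eq_inv_of_mul_eq_one_left (h2 (w * r) ha), mul_inv_rev, ← eq_inv_of_mul_eq_one_left (el_sq eQ hw),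
      ← eq_inv_of_mul_eq_one_left (el_sq eR hr)]
  exact (nc w hw r hr h3).elim (fun h => .inr (mul_mem h hr)) fun h => .inl (mul_mem hw h)

omit [Finite G] in
theorem swap_pow {s : G} (h1 : Q ^ᶜ s = R) (h2 : R ^ᶜ s = Q) {m : ℕ} (hm : Odd m) :
    Q ^ᶜ (s ^ m) = R ∧ R ^ᶜ (s ^ m) = Q := by
  obtain ⟨j, rfl⟩ := hm
  induction j with
  | zero => simpa using ⟨h1, h2⟩
  | succ j ih =>
    rw [show 2 * (j + 1) + 1 = 1 + (1 + (2 * j + 1)) by ring, pow_add, pow_add, pow_one,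
      GT.map_conj_mul, GT.map_conj_mul, GT.map_conj_mul R, GT.map_conj_mul R, ih.1, ih.2, h2, h1]
    exact ⟨rfl, h2⟩

omit [Finite G] in
theorem norm_inf {s : G} (h1 : Q ^ᶜ s = R) (h2 : R ^ᶜ s = Q) :
    s ∈ normalizer ((Q ⊓ R : Subgroup G) : Set G) :=
  GT.map_conj_eq_self_iff.1 (by rw [GT.map_conj_inf, h1, h2, inf_comm])

omit [Finite G] in
theorem norm_inf' {s : G} (h1 : s ∈ normalizer (Q : Set G)) (h2 : s ∈ normalizer (R : Set G)) :
    s ∈ normalizer ((Q ⊓ R : Subgroup G) : Set G) :=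
  GT.map_conj_eq_self_iff.1 (by
    rw [GT.map_conj_inf, GT.map_conj_eq_of_mem_norm h1, GT.map_conj_eq_of_mem_norm h2])

end A7

theorem Pr.le_or (P : Pr q Q R k g) {E : Subgroup G} (hE : E ≤ Q ⊔ R) (h2 : ∀ a ∈ E, a * a = 1) :
    E ≤ Q ∨ E ≤ R := A7.le_or P.eQ P.eR P.RQ P.nc hE h2

theorem Pr.not8 (h : Th G 7) (P : Pr 8 Q R k g) : False := by
  have hk : orderOf k = 7 := P.ho
  have hg : ∀ {A B : Subgroup G}, A ^ᶜ g = B → k ∈ normalizer (A : Set G) →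
      g * k * g⁻¹ ∈ normalizer (B : Set G) := fun e hA => by
    rw [← e, GT.normalizer_map_conj]; exact GT.conj_mem_map_conj.2 hA
  obtain ⟨n, hn, h1⟩ := h.conj_p (H := normalizer (Q : Set G) ⊓ normalizer (R : Set G))
    ((GT.orderOf_conj k g).trans hk) hk ⟨hg P.gR P.hR, hg P.gQ P.hQ⟩ ⟨P.hQ, P.hR⟩
  have h2 : n * g ∈ normalizer (zpowers k : Set G) := GT.map_conj_eq_self_iff.1 (by
    rw [GT.map_conj_mul, GT.map_conj_zpowers, h1])
  obtain ⟨e, -, h3, h4, -⟩ := h.norm_card hk (mem_top k)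
  rw [top_inf_eq] at h3
  obtain ⟨h5, h6⟩ := A7.swap_pow (s := n * g) (Q := Q) (R := R) (m := 21)
    (by rw [GT.map_conj_mul, P.gQ, GT.map_conj_eq_of_mem_norm hn.2])
    (by rw [GT.map_conj_mul, P.gR, GT.map_conj_eq_of_mem_norm hn.1]) (by decide)
  have h7 : (n * g) ^ 21 * (n * g) ^ 21 = 1 := by
    rw [← pow_add]
    exact orderOf_dvd_iff_pow_eq_one.1 ((orderOf_dvd_natCard _ h2).trans
      (h3 ▸ Nat.mul_dvd_mul_left 7 h4))
  have h8 := pow_mem h2 21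
  generalize (n * g) ^ 21 = t at h5 h6 h7 h8
  have ht : t⁻¹ = t := inv_eq_of_mul_eq_one_left h7
  have h9 : t * (k * t * k⁻¹) ∈ zpowers k := by
    rw [show t * (k * t * k⁻¹) = t * k * t⁻¹ * k⁻¹ by rw [ht]; group]
    exact mul_mem (GT.conj_mem_of_mem_normalizer h8 (mem_zpowers k)) (inv_mem (mem_zpowers k))
  have h10 : t * (k * t * k⁻¹) ≠ 1 := fun e => by
    have h11 : t = 1 := h.fpf hk (by
      have := eq_inv_of_mul_eq_one_right e
      rw [ht, mul_inv_eq_iff_eq_mul] at this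
      exact this) ⟨1, by rw [pow_one, sq, h7]⟩
    rw [h11, GT.map_conj_one] at h5
    have := P.cZ
    rw [← h5, inf_idem, P.cQ] at this
    omega
  have : Fact (Nat.Prime 7) := ⟨by norm_num⟩
  have h11 : orderOf (t * (k * t * k⁻¹)) = 7 := orderOf_eq_prime (orderOf_dvd_iff_pow_eq_one.1
    (hk ▸ orderOf_dvd_of_mem_zpowers h9)) h10
  have eZ : IsElementaryAbelian 2 (Q ⊓ R : Subgroup G) := el_of_sq fun a ha => el_sq P.eQ ha.1
  have hZ := A7.norm_inf h5 h6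
  have kZ := A7.norm_inf' P.hQ P.hR
  have h12 := sq_le eZ hZ (h7 ▸ one_mem _)
  have h13 := sq_le eZ (mul_mem (mul_mem kZ hZ) (inv_mem kZ))
    (by rw [conj_mul, h7, mul_one, mul_inv_cancel]; exact one_mem _)
  have h14 := GT.card_sup_mul_card_inf_of_le_normalizer (H := Q ⊓ R ⊓ Cn t)
    (N := Q ⊓ R ⊓ Cn (k * t * k⁻¹)) (GT.le_normalizer_of_le_centralizer fun a ha b hb =>
      el_comm eZ hb.1 ha.1)
  have h15 : (Q ⊓ R ⊓ Cn t) ⊓ (Q ⊓ R ⊓ Cn (k * t * k⁻¹)) = ⊥ := eq_bot_iff.2 fun v hv =>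
    h.fpf h11 ((mem_Cn.1 hv.1.2).mul_left (mem_Cn.1 hv.2.2)) (tw_of_mem (two_of_el eZ) hv.1.1)
  have h16 := card_le_of_le (sup_le (inf_le_left (a := Q ⊓ R) (b := Cn t))
    (inf_le_left (a := Q ⊓ R) (b := Cn (k * t * k⁻¹))))
  rw [h15, card_bot, mul_one] at h14
  rw [h14, P.cZ] at h16
  rw [P.cZ] at h12 h13
  have h17 : ∀ {a : ℕ}, 8 ≤ a ^ 2 → 3 ≤ a := fun ha => by nlinarith
  have := Nat.mul_le_mul (h17 h12) (h17 h13)
  omega

theorem Pr.not4 (h : Th G p) (P : Pr 4 Q R k g) : False := by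
  obtain ⟨a, m, hm, h1⟩ := Nat.exists_eq_two_pow_mul_odd (orderOf_pos g).ne'
  obtain ⟨h2, h3⟩ := A7.swap_pow P.gQ P.gR hm
  have h4 : IsPGroup 2 (zpowers (g ^ m)) := IsPGroup.of_card_dvd_pow (n := a) (by
    rw [Nat.card_zpowers, orderOf_dvd_iff_pow_eq_one, ← pow_mul, mul_comm, ← h1, pow_orderOf_eq_one])
  generalize g ^ m = s at h2 h3 h4
  have hT : IsPGroup 2 (R ⊔ Q : Subgroup G) :=
    GT.PG.isPGroup_sup_of_le_normalizer (two_of_el P.eR) (two_of_el P.eQ) P.RQ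
  rw [sup_comm] at hT
  obtain ⟨S, hS⟩ := (GT.PG.isPGroup_sup_of_le_normalizer h4 hT (zpowers_le.2
    (GT.map_conj_eq_self_iff.1 (by rw [GT.map_conj_sup, h2, h3, sup_comm])))).exists_le_sylow
  obtain ⟨E, hES, eE, cE, hn⟩ := h.e8 S
  have hTE : Q ⊔ R ≤ normalizer (E : Set G) := le_sup_right.trans (hS.trans hn)
  have hsE := GT.map_conj_eq_of_mem_norm (hn (hS (mem_sup_left (mem_zpowers s))))
  have h5 : E ⊓ (Q ⊔ R) ≤ Q ⊓ R := by
    have h6 : (E ⊓ (Q ⊔ R)) ^ᶜ s = E ⊓ (Q ⊔ R) := by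
      rw [GT.map_conj_inf, GT.map_conj_sup, hsE, h2, h3, sup_comm]
    rcases P.le_or (E := E ⊓ (Q ⊔ R)) inf_le_right fun a ha => el_sq eE ha.1 with e | e
    · exact le_inf e (h6.ge.trans ((map_mono e).trans h2.le))
    · exact le_inf (h6.ge.trans ((map_mono e).trans h3.le)) e
  have h6 : ∀ e ∈ E, e ∈ normalizer ((Q ⊔ R : Subgroup G) : Set G) → e ∈ Q ⊔ R := fun e he hN => by
    have h7 : ∀ w ∈ Q, w * e * w⁻¹ * e⁻¹ ∈ E ⊓ (Q ⊔ R) := fun w hw =>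
      mem_inf.2 ⟨mul_mem (GT.conj_mem_of_mem_normalizer (hTE (mem_sup_left hw)) he) (inv_mem he), by
        rw [mul_assoc, mul_assoc, ← mul_assoc e]
        exact mul_mem (mem_sup_left hw)
          (GT.conj_mem_of_mem_normalizer hN (mem_sup_left (inv_mem hw)))⟩
    have h8 : e ∈ normalizer (Q : Set G) := GT.mem_normalizer_iff_of_finite.2 fun w hw => by
      rw [show e * w * e⁻¹ = w * (w⁻¹ * e * w⁻¹⁻¹ * e⁻¹) by group]
      exact mul_mem hw (h5 (h7 _ (inv_mem hw))).1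
    by_cases hQ : e ∈ Q
    · exact mem_sup_left hQ
    have h9 := GT.card_inf_mul_relIndex (Cn e) Q
    rw [inf_comm, P.free e h8 hQ (by rw [el_sq eE he]; exact one_mem _), P.cQ] at h9
    have h10 : (Cn e).relIndex Q ≤ _ :=
      GT.PG.relIndex_centralizer_le (H := Q) (B := E ⊓ (Q ⊔ R)) (x := e) h7
    have h11 := eq_of_le_of_card_ge h5 (by rw [P.cZ]; exact le_trans (by omega) h10)
    exact P.cz ⟨h8, fun z hz => el_comm eE (h11.ge hz).1 he⟩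
  have h7 : E ≤ Q ⊔ R := by
    by_contra h7
    obtain ⟨x, ⟨hx, hxN⟩, hxT⟩ := SetLike.exists_of_lt (GT.Tr.lt_inf_normalizer
      (S.isPGroup'.to_le (sup_le (le_sup_right.trans hS) hES)) (left_lt_sup.2 h7))
    have h8 : x ∈ ((Q ⊔ R ⊔ E : Subgroup G) : Set G) := hx
    rw [coe_mul_of_left_le_normalizer_right _ _ hTE] at h8
    obtain ⟨t, ht, e, he, rfl⟩ := h8
    exact hxT (mul_mem ht (h6 e he ((mul_mem_cancel_left (le_normalizer ht)).1 hxN)))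
  have := card_le_of_le ((le_inf le_rfl h7).trans h5)
  rw [cE, P.cZ] at this
  omega

end Cfsg.Agent.K3P
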