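import Mathlib
import Cfsg.Agent.K3P.A1
import Cfsg.Agent.K3P.A7

/-! The case `K / Q = SL(2, q)`: a second conjugate of `Q` in `M` gives a swapped pair. -/

set_option autoImplicit false
open Cfsg Subgroup

namespace Cfsg.Agent.K3P

variable {G : Type*} [Group G] [Finite G] {p q : ℕ} {M Q K : Subgroup G}

namespace A6

theorem rel (c : CA p q M Q K) {X : Subgroup G} (h2 : X ≤ K) (h3 : Nat.card X = q * Nat.card Q) :
    X.relIndex K = q ^ 2 - 1 := by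
  have h4 := GT.card_mul_relIndex h2
  rw [c.cardK, ← mul_assoc, mul_comm _ q, ← h3] at h4
  exact Nat.eq_of_mul_eq_mul_left Nat.card_pos h4

theorem odd (c : CA p q M Q K) {X : Subgroup G} (h2 : X ≤ K) (h3 : Nat.card X = q * Nat.card Q) :
    ¬ 2 ∣ X.relIndex K := by
  rw [rel c h2 h3]
  rcases c.pq with ⟨-, rfl⟩ | ⟨-, rfl⟩ <;> norm_num

end A6

theorem CA.noover (c : CA p q M Q K) {X S : Subgroup G} {k : G} (h1 : Q ≤ X) (h2 : X ≤ K)
    (h3 : Nat.card X = q * Nat.card Q) (hk : k ∈ normalizer (X : Set G)) (hkM : k ∈ M)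
    (ho : orderOf k = q - 1) (hf : X ⊓ Cn k = ⊥) (hS : IsPGroup 2 S) (hXS : X ≤ S) (hSM : S ≤ M)
    (hkS : k ∈ normalizer (S : Set G)) : S = X := by
  rcases c.idx with hi | ⟨rfl, hi, w, hw, ⟨j, hj⟩, hww⟩
  · exact le_antisymm (GT.Tr.le_of_sylowIn_le (A6.odd c h2 h3) hS hXS (c.le_K hi hS hSM)) hXS
  by_contra hne
  have nQ : ∀ {a b : G}, a ∈ M → b ∈ Q → a * b * a⁻¹ ∈ Q := fun ha hb =>
    GT.conj_mem_of_mem_normalizer (c.nQ ▸ ha) hb
  have h4 := relIndex_mul_relIndex X S M hXS hSM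
  rw [← relIndex_mul_relIndex X K M h2 c.KM, A6.rel c h2 h3, hi] at h4
  have h5 : X.relIndex S = 2 := by
    obtain ⟨i, h5⟩ := hS.index (X.subgroupOf S)
    have h6 : X.relIndex S ≠ 1 := fun e => hne (le_antisymm (relIndex_eq_one.1 e) hXS)
    rw [relIndex, h5] at h4 h6 ⊢
    rcases i with _ | _ | i
    · simp at h6
    · rfl
    · exact absurd (show 4 ∣ (4 ^ 2 - 1) * 2 from ⟨2 ^ i * S.relIndex M, by rw [← h4]; ring⟩)
        (by norm_num)
  have mod : ∀ {U : Subgroup G}, U ≤ X → k ∈ normalizer (U : Set G) → Nat.card U % 3 = 1 :=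
    fun hU hn => by
      rw [card_mod_cn Nat.prime_three ho hn, eq_bot_iff.2 ((inf_le_inf_right _ hU).trans hf.le),
        card_bot]
  have h6 := card_mod_cn Nat.prime_three ho hkS
  have h7 := GT.card_mul_relIndex hXS
  have h8 := mod le_rfl hk
  rw [h5] at h4 h7
  obtain ⟨⟨s, hs, hsk⟩, hs1⟩ := ne_bot_iff_exists_ne_one.1 (show S ⊓ Cn k ≠ ⊥ from fun e => by
    rw [e, card_bot] at h6; omega)
  have hsX : s ∉ X := fun e => hs1 (Subtype.ext (hf.le ⟨e, hsk⟩))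
  have hs2 : s * s = 1 := hf.le ⟨mul_self_mem_of_index_two h5 ⟨s, hs⟩, mul_mem hsk hsk⟩
  have hXM := h2.trans c.KM
  let U : Subgroup G :=
    { carrier := {a | a ∈ X ∧ s * a * s⁻¹ * a⁻¹ ∈ Q}
      one_mem' := ⟨one_mem _, by simp⟩
      mul_mem' := fun {a b} ha hb => ⟨mul_mem ha.1 hb.1, by
        convert mul_mem ha.2 (nQ (hXM ha.1) hb.2) using 1; group⟩
      inv_mem' := fun {a} ha => ⟨inv_mem ha.1, by
        convert nQ (inv_mem (hXM ha.1)) (inv_mem ha.2) using 1; group⟩ }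
  have hUX : U ≤ X := fun a ha => ha.1
  have hQU : Q ≤ U := fun a ha => ⟨h1 ha, mul_mem (nQ (hSM hs) ha) (inv_mem ha)⟩
  have hkU : k ∈ normalizer (U : Set G) := GT.mem_normalizer_iff_of_finite.2 fun a ha =>
    ⟨GT.conj_mem_of_mem_normalizer hk ha.1, by
      convert nQ hkM ha.2 using 1
      conv_lhs => rw [← (mem_Cn.1 hsk).mul_inv_cancel]
      group⟩
  have : (X.subgroupOf S).Normal := normal_of_index_eq_two h5
  obtain ⟨u, hu, huQ, h9⟩ := exists_fix (X := zpowers s) (hS.to_le (zpowers_le.2 hs))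
    (hS.to_le hXS) (lt_of_le_of_ne h1 fun e => by
      have := Nat.card_pos (α := Q)
      rw [← e] at h3; omega)
    (zpowers_le.2 ((normal_subgroupOf_iff_le_normalizer hXS).1 this hs))
    (zpowers_le.2 (c.nQ ▸ hSM hs)) (c.nQ ▸ hXM)
  have h10 : U = X := by
    have h11 := mod hUX hkU
    have h12 := mod h1 (c.nQ ▸ hkM)
    have h13 := GT.card_mul_relIndex hQU
    have h14 : Q.relIndex U ≠ 1 := fun e => huQ (relIndex_eq_one.1 e ⟨hu, h9 s (mem_zpowers s)⟩)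
    have h15 := card_le_of_le hUX
    have h16 : Q.relIndex U % 3 = 1 := by rw [← h13, Nat.mul_mod, h12] at h11; omega
    refine eq_of_le_of_card_ge hUX ?_
    rw [h3, ← h13, mul_comm]
    exact Nat.mul_le_mul_left _ (by omega)
  have h11 := (c.syl X h1 h2 h3).1
  obtain ⟨m, hm, h12⟩ := GT.Tr.exists_conj_le_sylowIn (T := zpowers w) hS (H := M) (by omega)
    (IsPGroup.of_card_dvd_pow (n := j) (by rwa [Nat.card_zpowers, orderOf_dvd_iff_pow_eq_one]))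
    (zpowers_le.2 hw)
  have h13 : ∀ a ∈ S, a * a ∈ Q := fun a ha => by
    by_cases haX : a ∈ X
    · exact h11 a haX
    have h14 : a * s ∈ X := (mul_mem_iff_of_index_two h5 (a := ⟨a, ha⟩) (b := ⟨s, hs⟩)).2
      (iff_of_false haX hsX)
    convert mul_mem (nQ (hXM h14) (h10.ge h14).2) (h11 _ h14) using 1
    calc a * a = a * (s * s) * a := by rw [hs2, mul_one]
      _ = _ := by group
  exact hww (by
    convert nQ (inv_mem hm) (h13 _ (h12 w (mem_zpowers w))) using 1; group)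

namespace A6

variable {R : Subgroup G}

/-- Another elementary abelian subgroup of `M` of the order of `Q`. -/
theorem basic (h : Th G p) (c : CA p q M Q K) (cQ : Nat.card Q = q ^ 2)
    (eR : IsElementaryAbelian 2 R) (cR : Nat.card R = q ^ 2) (h1 : R ≤ M) (h2 : R ≠ Q) :
    Nat.card (Q ⊓ R : Subgroup G) = q ∧ (∀ w ∈ Q, ∀ r ∈ R, Commute w r → w ∈ R ∨ r ∈ Q) ∧
      Q ≤ normalizer (R : Set G) ∧ Q ⊔ R ≤ K ∧ Nat.card (Q ⊔ R : Subgroup G) = q * Nat.card Q ∧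
      M ⊓ centralizer ((Q ⊓ R : Subgroup G) : Set G) ≤ Q ⊔ R ∧
      ∃ k ∈ K, k ∈ normalizer ((Q ⊔ R : Subgroup G) : Set G) ∧ orderOf k = q - 1 := by
  have hq : 4 ≤ q := by rcases c.pq with ⟨-, rfl⟩ | ⟨-, rfl⟩ <;> norm_num
  have h3 := c.rk h1 fun a ha => by rw [el_sq eR ha]; exact one_mem _
  rw [cR, sq, inf_comm] at h3
  replace h3 := Nat.le_of_mul_le_mul_left h3 (by omega)
  have h4 : ∀ r ∈ R, r ∉ Q → Q ⊓ R = Q ⊓ Cn r ∧ Nat.card (Q ⊓ R : Subgroup G) = q :=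
    fun r hr hrQ => by
      have h5 := c.free r (h1 hr) hrQ (by rw [el_sq eR hr]; exact one_mem _)
      rw [cQ, Nat.pow_left_inj (by norm_num)] at h5
      have h6 := eq_of_le_of_card_ge (inf_le_inf_left Q (show R ≤ Cn r from fun a ha =>
        mem_Cn.2 (el_comm eR hr ha))) (h5 ▸ h3)
      exact ⟨h6, h6 ▸ h5⟩
  obtain ⟨r, hr, hrQ⟩ : ∃ r ∈ R, r ∉ Q := by
    by_contra! e
    exact h2 (eq_of_le_of_card_ge e (by omega))
  have cZ := (h4 r hr hrQ).2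
  have cT := GT.card_sup_mul_card_inf_of_le_normalizer (H := R) (N := Q) (c.nQ ▸ h1)
  rw [sup_comm, inf_comm, cZ, cR, sq, mul_right_comm] at cT
  replace cT := Nat.eq_of_mul_eq_mul_right (by omega) cT
  obtain ⟨r0, ⟨hrK, hr0⟩, hr0Q⟩ : ∃ r ∈ K ⊓ R, r ∉ Q := by
    rcases c.idx with hi | ⟨rfl, hi, -⟩
    · exact ⟨r, ⟨c.le_K hi (two_of_el eR) h1 hr, hr⟩, hrQ⟩
    by_contra! e
    have h5 := GT.card_inf_mul_relIndex K R
    have h6 := relIndex_le_of_le_right (H := K) h1 (by omega)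
    have h7 := card_le_of_le (le_inf (show K ⊓ R ≤ Q from e) inf_le_right)
    rw [cZ] at h7
    rw [hi] at h6
    have := Nat.mul_le_mul h7 h6
    omega
  obtain ⟨X, x1, x2, x3, -, x5⟩ := c.sylK ((two_of_el eR).to_le (inf_le_right (a := K))) inf_le_left
  obtain ⟨-, k, hk, k1, k2, k3⟩ := c.syl X x2 x3 x5
  have h5 : Q ⊓ centralizer (X : Set G) = Q ⊓ R := eq_of_le_of_card_ge
    ((inf_le_inf_left Q (GT.centralizer_le_centralizer_singleton (x1 ⟨hrK, hr0⟩))).trans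
      (h4 r0 hr0 hr0Q).1.ge) (cZ ▸ c.four_le x2 x3 x5)
  have kM := c.KM hk
  have h6 : M ⊓ centralizer ((Q ⊓ R : Subgroup G) : Set G) = X := c.noover x2 x3 x5 k1 kM k2 k3
    ((h.cent_two (U := Q ⊓ R) (el_of_sq fun a ha => el_sq eR ha.2) (cZ ▸ hq)).to_le inf_le_right)
    (le_inf (x3.trans c.KM) fun a ha b hb => ((h5.ge hb).2 a ha).symm) inf_le_left
    (A7.norm_inf' (le_normalizer kM) (GT.Tr.normalizer_le_normalizer_centralizer _ (h5 ▸
      A7.norm_inf' (c.nQ ▸ kM) (GT.Tr.normalizer_le_normalizer_centralizer _ k1))))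
  have h7 : Q ⊔ R = X := eq_of_le_of_card_ge (sup_le x2 (h6 ▸ le_inf h1 fun a ha b hb =>
    el_comm eR hb.2 ha)) (by rw [x5, cT])
  refine ⟨cZ, fun w hw r hr hc => or_iff_not_imp_right.2 fun e =>
    ((h4 r hr e).1.ge ⟨hw, mem_Cn.2 hc.symm⟩).2, fun w hw => GT.mem_normalizer_iff_of_finite.2
      fun r hr => ?_, h7 ▸ x3, cT, (h6.trans h7.symm).le, k, hk, h7 ▸ k1, k2⟩
  by_cases e : r ∈ Q
  · rwa [(el_comm c.el hw e).eq, mul_inv_cancel_right]
  have h8 : r * w⁻¹ * r⁻¹ ∈ Q := GT.conj_mem_of_mem_normalizer (c.nQ ▸ h1 hr) (inv_mem hw)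
  have h9 := ((h4 r hr e).1.ge ⟨mul_mem hw h8, mem_Cn.2 (show r * _ = _ * r by
    conv_rhs => rw [(el_comm c.el hw h8).eq]
    rw [inv_eq_of_mul_eq_one_left (el_sq c.el hw), inv_eq_of_mul_eq_one_left (el_sq eR hr)]
    simp only [mul_assoc])⟩).2
  rw [show w * r * w⁻¹ = w * (r * w⁻¹ * r⁻¹) * r by group]
  exact mul_mem h9 hr

end A6

theorem CA.pr (h : Th G p) (c : CA p q M Q K) {g : G} (h1 : Q ^ᶜ g ≤ M) (h2 : Q ^ᶜ g ≠ Q) :
    ∃ (R : Subgroup G) (k s : G), Pr q Q R k s := by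
  have cQ := c.small h1 h2
  have eR := el_conj c.el g
  have cR := (GT.card_map_conj Q g).trans cQ
  have RQ : Q ^ᶜ g ≤ normalizer (Q : Set G) := c.nQ ▸ h1
  obtain ⟨b1, b2, b3, b4, b5, b6, k, hk, b7, b8⟩ := A6.basic h c cQ eR cR h1 h2
  have key : ∀ {A : Subgroup G} {m : G}, IsElementaryAbelian 2 A → Nat.card A = q ^ 2 → A ≠ Q →
      m ∈ K → A ^ᶜ m ≤ Q ⊔ Q ^ᶜ g → A ^ᶜ m = Q ^ᶜ g := fun {A m} eA cA hA hm hle => by
    rcases A7.le_or c.el eR RQ b2 hle fun a ha => el_sq (el_conj eA m) ha with e | e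
    · rw [GT.map_conj_le_iff, GT.map_conj_eq_of_mem_norm (c.nQ ▸ inv_mem (c.KM hm))] at e
      exact absurd (eq_of_le_of_card_ge e (by omega)) hA
    · exact eq_of_le_of_card_ge e (by rw [GT.card_map_conj A, cA, cR])
  have h3 : Q ^ᶜ g⁻¹ ≤ M := by
    rw [GT.map_conj_le_iff, inv_inv, ← c.nQ, ← GT.normalizer_map_conj]; exact b3
  have h4 : Q ^ᶜ g⁻¹ ≠ Q := fun e => h2 (by rw [GT.map_conj_eq_iff, inv_inv] at e; exact e.symm)
  have cR' := (GT.card_map_conj Q g⁻¹).trans cQ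
  obtain ⟨m, hm, h5⟩ := GT.Tr.exists_conj_le_sylowIn (sup_comm Q (Q ^ᶜ g) ▸
    GT.PG.isPGroup_sup_of_le_normalizer (two_of_el eR) (two_of_el c.el) RQ) (A6.odd c b4 b5)
    (two_of_el (el_conj c.el g⁻¹))
    (le_sup_right.trans (A6.basic h c cQ (el_conj c.el g⁻¹) cR' h3 h4).2.2.2.1)
  exact ⟨Q ^ᶜ g, k, m * g⁻¹, c.el, eR, cQ, cR, b1, RQ, b3, b2, c.nQ ▸ c.KM hk,
    GT.map_conj_eq_self_iff.1 (key eR cR h2 hk (GT.map_conj_le_of_mem_normalizer le_sup_right b7)),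
    b8, by rw [GT.map_conj_mul,
      key (el_conj c.el g⁻¹) cR' h4 hm (GT.map_conj_le_iff_forall.2 h5)],
    by rw [GT.map_conj_mul, GT.map_conj_inv_map_conj, GT.map_conj_eq_of_mem_norm (c.nQ ▸ c.KM hm)],
    c.nQ ▸ b6, fun a ha haQ h6 => by
      have := c.free a (c.nQ ▸ ha) haQ h6
      rwa [cQ, Nat.pow_left_inj (by norm_num)] at this⟩

end Cfsg.Agent.K3P
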