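import Mathlib
import Cfsg.Agent.K3P.Bas
import Cfsg.Agent.FG.H93Cyc

/-! Sections with noncyclic Sylow 3-subgroups do not occur. -/

set_option autoImplicit false
open Cfsg Subgroup

namespace Cfsg.Agent.K3P

variable {G : Type*} [Group G] [Finite G] {p : ℕ} {M Q K : Subgroup G}

theorem Cf.cyc3 (h : Th G p) (c : Cf p M Q K) {L : Type*} [Group L] (s : Sec K Q L)
    (Y : Subgroup L) (hY : IsPGroup 3 Y) : IsCyclic Y := by
  obtain ⟨f, hf, -⟩ := s
  have : Fact (Nat.Prime 3) := ⟨Nat.prime_three⟩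
  have : Finite L := Finite.of_surjective f hf
  obtain ⟨T, hT⟩ := hY.exists_le_sylow
  obtain ⟨P, rfl⟩ := Sylow.mapSurjective_surjective hf 3 T
  have h1 := h.cyc3 c.two c.ne (P.2.map K.subtype) ((map_subtype_le _).trans (c.KM.trans c.nQ.ge))
  have h2 : IsCyclic (P : Subgroup K) :=
    isCyclic_of_surjective _ ((P : Subgroup K).equivMapOfInjective _ K.subtype_injective).symm.surjective
  have h3 : IsCyclic ((P : Subgroup K).map f) := isCyclic_of_surjective _ (f.subgroupMap_surjective _)
  exact isCyclic_of_le (H' := (P : Subgroup K).map f) hT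

theorem Cf.not_A6 (h : Th G p) (c : Cf p M Q K) (s : Sec K Q (alternatingGroup (Fin 6))) : False := by
  have : Fact (Nat.Prime 3) := ⟨Nat.prime_three⟩
  obtain ⟨P⟩ : Nonempty (Sylow 3 (alternatingGroup (Fin 6))) := inferInstance
  obtain ⟨g, hg⟩ := (c.cyc3 h s _ P.2).exists_ofOrder_eq_natCard
  rw [P.card_eq_multiplicity, Nat.card_eq_fintype_card, card_alternatingGroup, Fintype.card_fin,
    show Nat.factorial 6 / 2 = 3 ^ 2 * 40 by decide, Nat.factorization_mul (by norm_num) (by norm_num),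
    Finsupp.add_apply, Nat.factorization_eq_zero_of_not_dvd (n := 40) (by norm_num),
    Nat.prime_three.factorization_pow, Finsupp.single_eq_same, ← orderOf_coe, ← orderOf_coe,
    ← Equiv.Perm.lcm_cycleType] at hg
  have h1 := ((g : alternatingGroup (Fin 6)) : Equiv.Perm (Fin 6)).sum_cycleType_le
  rw [Fintype.card_fin] at h1
  have h2 : (((g : alternatingGroup (Fin 6)) : Equiv.Perm (Fin 6)).cycleType).lcm ∣ 60 :=
    Multiset.lcm_dvd.2 fun n hn => by
      have h3 := (Multiset.single_le_sum (fun _ _ => Nat.zero_le _) n hn).trans h1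
      have h4 := Equiv.Perm.two_le_of_mem_cycleType hn
      interval_cases n <;> norm_num
  rw [hg] at h2
  norm_num at h2

theorem dvd_of_fix {P Ω : Type*} [Group P] [Finite P] [Finite Ω] [MulAction P Ω]
    (h : ∀ g : P, g ≠ 1 → Nat.card (MulAction.fixedBy Ω g) = 1) :
    Nat.card P ∣ Nat.card Ω + (Nat.card P - 1) := by
  classical
  have := Fintype.ofFinite P
  have := fun g : P => Fintype.ofFinite (MulAction.fixedBy Ω g)
  have := Fintype.ofFinite (Quotient (MulAction.orbitRel P Ω))
  have k := MulAction.sum_card_fixedBy_eq_card_orbits_mul_card_group P Ω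
  rw [← Finset.add_sum_erase _ _ (Finset.mem_univ 1), Finset.sum_congr rfl (g := fun _ => 1)
    fun g hg => by rw [← Nat.card_eq_fintype_card, h g (Finset.ne_of_mem_erase hg)],
    ← Nat.card_eq_fintype_card, MulAction.fixedBy_one_eq_univ] at k
  simp only [Finset.sum_const, Finset.card_erase_of_mem (Finset.mem_univ _), Finset.card_univ,
    smul_eq_mul, mul_one, Nat.card_univ] at k
  rw [Nat.card_eq_fintype_card (α := P), k]
  exact dvd_mul_left _ _

theorem Cf.not_25920 (h : Th G p) (c : Cf p M Q K) {L : Type*} [Group L] [IsSimpleGroup L]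
    (s : Sec K Q L) (hL : Nat.card L = 25920) : False := by
  have : Fact (Nat.Prime 3) := ⟨Nat.prime_three⟩
  have : Finite L := Nat.finite_of_card_ne_zero (by omega)
  obtain ⟨P, hP⟩ := Sylow.exists_subgroup_card_pow_prime (G := L) 3 (n := 4) (by rw [hL]; norm_num)
  have hc := c.cyc3 h s P (IsPGroup.of_card hP)
  obtain ⟨Y₀, hY₀⟩ := Sylow.exists_subgroup_card_pow_prime (G := P) 3 (n := 1) (by rw [hP]; norm_num)
  obtain ⟨Y, hYP, hY⟩ : ∃ Y ≤ P, Nat.card Y = 3 ^ 1 :=
    ⟨Y₀.map P.subtype, map_subtype_le _, by rw [card_map_of_injective P.subtype_injective, hY₀]⟩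
  have h1 : P ≤ normalizer (Y : Set L) := fun g hg => centralizer_le_normalizer _ fun y hy =>
    congrArg Subtype.val (hc.isMulCommutative.is_comm.comm (⟨y, hYP hy⟩ : P) ⟨g, hg⟩)
  have h2 := dvd_of_fix (P := P) (Ω := L ⧸ normalizer (Y : Set L)) fun g hg => by
    obtain ⟨k, hk⟩ := (IsPGroup.iff_orderOf.1 (IsPGroup.of_card hP)) g
    have h3 : Y ≤ zpowers (g : L) := FG.H93.le_of_card_dvd_of_isCyclic hYP (zpowers_le.2 g.2) (by
      rw [hY, Nat.card_zpowers, orderOf_coe, hk]
      exact pow_dvd_pow 3 (Nat.pos_of_ne_zero fun e => hg (orderOf_eq_one_iff.1 (by rw [hk, e]; rfl))))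
    refine Nat.card_eq_one_iff_unique.2 ⟨⟨?_⟩, ⟨((1 : L) : L ⧸ _), QuotientGroup.eq.2 ?_⟩⟩
    · have key : ∀ x : L, g • (x : L ⧸ normalizer (Y : Set L)) = x → x ∈ normalizer (Y : Set L) :=
        fun x hx => by
          have h4 : x⁻¹ * g * x ∈ normalizer (Y : Set L) := by
            simpa [mul_assoc] using QuotientGroup.eq.1 hx.symm
          have h5 : Y ^ᶜ x⁻¹ ≤ normalizer (Y : Set L) := by
            refine (map_mono h3).trans ?_
            rw [MonoidHom.map_zpowers, zpowers_le]
            simpa using h4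
          have h6 := IsPGroup.of_card hY
          have := c.cyc3 h s _ (IsPGroup.to_sup_of_normal_left' h6 (h6.map _) h5)
          exact inv_mem_iff.1 (GT.map_conj_eq_self_iff.1 (FG.H93.eq_of_card_eq_of_isCyclic
            le_sup_right le_sup_left (GT.card_map_conj _ _)))
      rintro ⟨a, ha⟩ ⟨b, hb⟩
      obtain ⟨a, rfl⟩ := QuotientGroup.mk_surjective a
      obtain ⟨b, rfl⟩ := QuotientGroup.mk_surjective b
      exact Subtype.ext (QuotientGroup.eq.2 (mul_mem (inv_mem (key a ha)) (key b hb)))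
    · simpa using h1 g.2
  have h3 := index_dvd_of_le h1
  have h4 := P.index_mul_card
  rw [hP, hL] at h4
  rw [show P.index = 320 by omega] at h3
  rw [hP, ← index_eq_card] at h2
  have h5 := Nat.le_of_dvd (by norm_num) h3
  have h6 : (normalizer (Y : Set L)).index = 1 := by
    generalize (normalizer (Y : Set L)).index = n at h2 h3 h5
    obtain ⟨k, hk⟩ := h2
    obtain rfl | rfl | rfl | rfl : n = 1 ∨ n = 82 ∨ n = 163 ∨ n = 244 := by omega
    · rfl
    all_goals norm_num at h3
  rcases (normalizer_eq_top_iff.1 (index_eq_one.1 h6)).eq_bot_or_eq_top with e | e <;>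
    simp [e, hL] at hY

end Cfsg.Agent.K3P
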