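import Mathlib
import Cfsg.Agent.K3P.Bas
import Cfsg.Agent.GT.PGroupFrattini
import Cfsg.Agent.GT.CoprimeFixed
import Cfsg.Agent.FG.H93Cyc
import Cfsg.Agent.Perm.FixTools

/-! Elements of order three acting without fixed points. -/

set_option autoImplicit false
open Cfsg Subgroup

namespace Cfsg.Agent.K3P

variable {G : Type*} [Group G] [Finite G] {p : ℕ}

namespace Fpf

theorem arith {n : ℕ} (h3 : 2 ^ n % 3 = 2) : 2 ^ n % 5 ≠ 1 ∧ 2 ^ n % 17 ≠ 1 ∧
    (2 ^ n % 7 = 1 → 2 ^ n % 9 ≠ 2) := by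
  have k : ∀ m, (2 ^ 24) % m = 1 % m → 2 ^ n % m = 2 ^ (n % 24) % m := fun m hm => by
    conv_lhs => rw [← Nat.div_add_mod n 24, pow_add, pow_mul, Nat.mul_mod, Nat.pow_mod, hm, ← Nat.pow_mod,
      one_pow, ← Nat.mul_mod, one_mul]
  rw [k 3 (by norm_num)] at h3
  rw [k 5 (by norm_num), k 17 (by norm_num), k 7 (by norm_num), k 9 (by norm_num)]
  have := Nat.mod_lt n (show 0 < 24 by norm_num)
  generalize n % 24 = r at *
  interval_cases r <;> simp_all

/-- A cyclic 3-group acts freely outside the fixed points of its subgroup of order three. -/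
theorem free {A P : Subgroup G} {y : G} (hP : IsPGroup 3 P) [IsCyclic P] (hy : orderOf y = 3) (yP : y ∈ P)
    (hn : P ≤ normalizer (A : Set G)) :
    Nat.card P ∣ Nat.card A - Nat.card (A ⊓ Cn y : Subgroup G) := by
  have := Fact.mk Nat.prime_three
  have cm : ∀ h ∈ P, Commute y h := fun h hh =>
    congrArg Subtype.val (IsCyclic.commGroup.mul_comm (⟨y, yP⟩ : P) ⟨h, hh⟩)
  have d := @Perm.Fx.card_dvd_of_semiregular G _ G (MulAction.compHom G (MulAut.conj : G →* MulAut G))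
    P ((A : Set G) \ (A ⊓ Cn y : Subgroup G)) (fun h hh a ha => ⟨(mem_normalizer_iff.1 (hn hh) a).1 ha.1,
      fun e => ha.2 ⟨ha.1, by
        have := ((cm h hh).inv_right.mul_right (mem_Cn.1 e.2)).mul_right (cm h hh)
        exact mem_Cn.2 ((show h⁻¹ * (h * a * h⁻¹) * h = a by group) ▸ this)⟩⟩) fun h hh a ha e => by
      by_contra h1
      refine ha.2 ⟨ha.1, mem_Cn.2 ?_⟩
      obtain ⟨k, hk⟩ := FG.H93.le_of_card_dvd_of_isCyclic (zpowers_le.2 yP) (zpowers_le.2 hh) (by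
        rw [Nat.card_zpowers, hy]
        exact ((hP.to_le (zpowers_le.2 hh)).card_eq_or_dvd).resolve_left fun e =>
          h1 (zpowers_eq_bot.1 (card_eq_one.1 e))) (mem_zpowers y)
      rw [← hk]
      exact Commute.zpow_left (mul_inv_eq_iff_eq_mul.1 e) k
  rwa [Nat.card_coe_set_eq, Set.ncard_diff (SetLike.coe_subset_coe.2 inf_le_left), ← Nat.card_coe_set_eq,
    ← Nat.card_coe_set_eq] at d

end Fpf

theorem Th.fpf3 (h : Th G p) {M Q : Subgroup G} (hQ : IsPGroup 2 Q)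
    (hM : M ≤ normalizer (Q : Set G)) (hp : p ∣ Nat.card M)
    (hc : p = 5 ∨ p = 17 ∨ (p = 7 ∧ 9 ∣ Nat.card M)) {y v : G} (hyM : y ∈ M) (hy : orderOf y = 3)
    (hv : v ∈ Q) (hyv : Commute y v) : v = 1 := by
  have := Fact.mk Nat.prime_two
  have := Fact.mk Nat.prime_three
  have := Fact.mk h.shape.prime
  by_contra v1
  obtain ⟨A, ⟨AQ, nA, ne⟩, min⟩ := (wellFounded_lt (α := Subgroup G)).has_min
    {A | A ≤ Q ∧ M ≤ normalizer (A : Set G) ∧ A ⊓ Cn y ≠ ⊥}
    ⟨Q, le_rfl, hM, fun e => v1 (mem_bot.1 (e ▸ mem_inf.2 ⟨hv, mem_Cn.2 hyv⟩))⟩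
  have hA := hQ.to_le AQ
  have A1 : A ≠ ⊥ := fun e => ne (by rw [e, bot_inf_eq])
  have := (nontrivial_iff_ne_bot A).2 A1
  have f0 : (frattini A).map A.subtype ⊓ Cn y = ⊥ := by
    by_contra e
    refine min _ ⟨(map_subtype_le _).trans AQ,
      GT.CopAct.le_normalizer_map_subtype_of_characteristic nA _, e⟩ ((map_subtype_le _).lt_of_ne fun e => ?_)
    exact GT.PG.frattini_ne_top (map_injective A.subtype_injective (by
      rw [e, ← MonoidHom.range_eq_map, range_subtype]))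
  have c2 : Nat.card (A ⊓ Cn y : Subgroup G) = 2 := by
    have le := h.card_cn_le (U := A ⊓ Cn y) (el_of_sq fun a ha => mem_bot.1 (f0 ▸ mem_inf.2
      ⟨⟨_, GT.PG.pow_mem_frattini hA ⟨a, ha.1⟩, pow_two a⟩, mul_mem ha.2 ha.2⟩)) hy
    rw [inf_assoc, inf_idem] at le
    have := (one_lt_card_iff_ne_bot _).2 ne
    omega
  obtain ⟨n, hn⟩ := hA.exists_card_eq
  obtain ⟨x, hx⟩ := exists_prime_orderOf_dvd_card' p hp
  have m1 := h.card_mod hA ((orderOf_coe x).trans hx) (nA x.2)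
  have m3 := card_mod_cn Nat.prime_three hy (nA hyM)
  rw [c2, hn] at m3
  rw [hn] at m1
  obtain ⟨a5, a17, a7⟩ := Fpf.arith m3
  rcases hc with rfl | rfl | ⟨rfl, h9⟩
  · exact a5 m1
  · exact a17 m1
  obtain ⟨P, hP⟩ := ((isP_zpowers hy).comap_subtype (K := M)).exists_le_sylow
  have p3 : IsPGroup 3 ((P : Subgroup M).map M.subtype) := P.isPGroup'.map _
  have := h.cyc3 hA A1 p3 ((map_subtype_le _).trans nA)
  have d := Fpf.free p3 hy ⟨⟨y, hyM⟩, hP (mem_zpowers y), rfl⟩ ((map_subtype_le _).trans nA)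
  rw [card_map_of_injective M.subtype_injective, c2, hn] at d
  have d9 := (P.pow_dvd_card_of_pow_dvd_card (n := 2) h9).trans d
  have : 2 ≤ 2 ^ n := by omega
  exact a7 m1 (by omega)

end Cfsg.Agent.K3P
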