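import Mathlib
import Cfsg.Agent.K3P.Bas
import Cfsg.Agent.K3P.Fpf
import Cfsg.Agent.K3.L17
import Cfsg.Agent.Cl.LinearBasic

/-! The section `K / Q` is not `PSL₂(17)`. -/

set_option autoImplicit false
open Cfsg Subgroup

namespace Cfsg.Agent.K3P

variable {G : Type*} [Group G] [Finite G] {p : ℕ} {M Q K : Subgroup G}

theorem Cf.not_L17 (h : Th G p) (c : Cf p M Q K) {F : Type} [Field F] [Fintype F]
    (hF : Fintype.card F = 17) (s : Sec K Q (Matrix.ProjectiveSpecialLinearGroup (Fin 2) F)) :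
    False := by
  obtain ⟨V, mem, ne, el, nV⟩ := exists_omega c.two c.ne
  have cK := s.card c.QK
  have cL : Nat.card (Matrix.ProjectiveSpecialLinearGroup (Fin 2) F) = 2448 := by
    have h1 := Cl.card_psl_two_mul (F := F)
    rw [Nat.card_eq_fintype_card (α := F), hF] at h1
    norm_num at h1
    omega
  have dK : 17 ∣ Nat.card K := by rw [cK, cL]; exact Dvd.dvd.mul_left (by norm_num) _
  have dM : 17 ∣ Nat.card M := dK.trans (card_dvd_of_le c.KM)
  obtain rfl : 17 = p := h.shape.eq_of_dvd (by norm_num) (by norm_num)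
    (dM.trans (card_subgroup_dvd_card M))
  obtain ⟨f, hf, hk⟩ := s
  have KV : K ≤ normalizer (V : Set G) := c.KM.trans (c.nQ ▸ nV)
  let σ : K →* MulAut V := V.normalizerMonoidHom.comp (inclusion KV)
  have hσ : ∀ (k : K) (v : V), (σ k v : G) = k * v * (k : G)⁻¹ := fun _ _ => rfl
  have ker : f.ker ≤ σ.ker := fun k hk' => by
    ext v
    have := ((mem v).1 v.2).2.1 k ((hk k).1 hk')
    rw [hσ, this]; simp
  let ρ := (f.liftOfSurjective hf ⟨σ, ker⟩)
  have hρ : ∀ k, ρ (f k) = σ k := fun k => f.liftOfRightInverse_comp_apply _ _ _ k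
  let _ : CommGroup V :=
    { (inferInstance : Group V) with mul_comm := fun a b => Subtype.ext (el_comm el a.2 b.2) }
  have : Nontrivial V := (nontrivial_iff_ne_bot V).2 ne
  refine K3.l17 hF (V := V) (fun v => Subtype.ext (by rw [pow_two]; exact el_sq el v.2)) ρ
    fun a ha v hv => ?_
  obtain ⟨k, rfl, ko⟩ := lift_odd c.two f hf hk (l := a) (by rcases ha with e | e <;> rw [e] <;> decide)
  have cm : Commute (k : G) v := by
    have := congrArg Subtype.val hv
    rw [hρ, hσ] at this
    exact mul_inv_eq_iff_eq_mul.1 this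
  have vQ := ((mem v).1 v.2).1
  rcases ha with e | e
  · exact Subtype.ext (h.fpf3 c.two c.nQ.ge dM (.inr (.inl rfl)) (c.KM k.2) (ko.trans e) vQ cm)
  · exact Subtype.ext (h.fpf (ko.trans e) cm (tw_of_mem c.two vQ))

end Cfsg.Agent.K3P
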