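import Mathlib
import Cfsg.Agent.K3P.Defs
import Cfsg.Agent.Loc.MssRk1
import Cfsg.Agent.Cl.LinearIso
import Cfsg.Agent.Cl.GFSmall
import Cfsg.Agent.CIT.CAStruct

/-! Sylow 2-subgroups of `SL(2, 4)` and `SL(2, 8)`. -/

set_option autoImplicit false
set_option linter.unusedSectionVars false
open Cfsg Subgroup

namespace Cfsg.Agent.K3P

variable {G : Type*} [Group G] [Finite G] {p : ℕ} {M Q K : Subgroup G}

namespace SL

open Cfsg.Agent.GT Cfsg.Agent.Loc.Mss

variable {F : Type} [Field F]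

/-- The diagonal matrices of determinant one. -/
def dg : Fˣ →* Matrix.SpecialLinearGroup (Fin 2) F where
  toFun a := ⟨!![(a : F), 0; 0, (a⁻¹ : Fˣ)], by simp [Matrix.det_fin_two_of]⟩
  map_one' := by
    ext i j
    fin_cases i <;> fin_cases j <;> simp
  map_mul' a b := Subtype.ext (by
    show (_ : Matrix (Fin 2) (Fin 2) F) = !![(a : F), 0; 0, (a⁻¹ : Fˣ)] * !![(b : F), 0; 0, (b⁻¹ : Fˣ)]
    simp [mul_comm])

theorem dg_inj : Function.Injective (dg (F := F)) := fun _ _ h =>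
  Units.ext (congrArg (fun A : Matrix.SpecialLinearGroup (Fin 2) F => A 0 0) h)

theorem up_syl [Fintype F] [CharP F 2] (h4 : 4 ≤ Fintype.card F) : (∀ a ∈ upU F, a * a = 1) ∧
    ∃ h ∈ normalizer (upU F : Set (Matrix.SpecialLinearGroup (Fin 2) F)),
      orderOf h = Fintype.card F - 1 ∧ ∀ a ∈ upU F, Commute h a → a = 1 := by
  classical
  refine ⟨?_, ?_⟩
  · rintro _ ⟨t, rfl⟩
    rw [← slUp_add, CharTwo.add_self_eq_zero, slUp_zero]
  obtain ⟨l, hl⟩ := IsCyclic.exists_ofOrder_eq_natCard (α := Fˣ)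
  rw [Nat.card_eq_fintype_card, Fintype.card_units] at hl
  refine ⟨dg l, mem_norm_upU rfl, by rw [orderOf_injective dg dg_inj, hl], ?_⟩
  rintro _ ⟨t, rfl⟩ hc
  have h1 := conj_slUp (A := dg l) rfl t
  rw [hc.eq, mul_inv_cancel_right] at h1
  have h2 : t = (l : F) ^ 2 * t := slUp_injective h1
  rw [slUp_eq_one_iff]
  by_contra ht
  have h3 : l ^ 2 = 1 := Units.ext (by
    rw [Units.val_pow_eq_pow_val, Units.val_one]
    exact mul_right_cancel₀ ht (h2.symm.trans (one_mul t).symm))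
  have := Nat.le_of_dvd two_pos (orderOf_dvd_of_pow_eq_one h3)
  omega

theorem sec_congr {L L' : Type*} [Group L] [Group L'] (s : Sec K Q L) (e : L ≃* L') :
    Sec K Q L' := by
  obtain ⟨f, hf, hk⟩ := s
  exact ⟨e.toMonoidHom.comp f, e.surjective.comp hf, fun k => by simpa using hk k⟩

end SL

open Cfsg.Agent.GT Cfsg.Agent.Loc.Mss in
/-- Sylow 2-subgroups of `SL(2, q)`, `q = 4, 8`. -/
theorem sl2_syl {F : Type} [Field F] [Fintype F] {q : ℕ} (hq : q = 4 ∨ q = 8)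
    (hF : Fintype.card F = q) (X : Subgroup (Matrix.SpecialLinearGroup (Fin 2) F))
    (hX : Nat.card X = q) : (∀ a ∈ X, a * a = 1) ∧
      ∃ h ∈ normalizer (X : Set (Matrix.SpecialLinearGroup (Fin 2) F)), orderOf h = q - 1 ∧
        ∀ a ∈ X, Commute h a → a = 1 := by
  obtain ⟨n, hn⟩ : ∃ n, q = 2 ^ n := by
    rcases hq with rfl | rfl
    exacts [⟨2, rfl⟩, ⟨3, rfl⟩]
  have : CharP F 2 := charP_of_card_eq_prime_pow (hF.trans hn)
  obtain ⟨h1, h, hN, ho, hc⟩ := SL.up_syl (F := F) (by omega)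
  obtain ⟨g, -, rfl⟩ := (syl_upU (p := 2) (F := F)).conj_eq (syl_upU.of_card_le
    (IsPGroup.of_card (hX.trans hn)) le_top (by rw [card_upU, hX, Nat.card_eq_fintype_card, hF]))
  refine ⟨?_, g * h * g⁻¹, ?_, ?_, ?_⟩
  · rintro _ ⟨a, ha, rfl⟩
    rw [← map_mul, h1 a ha, map_one]
  · exact le_normalizer_map (MulAut.conj g).toMonoidHom ⟨h, hN, rfl⟩
  · rw [← hF, ← ho]
    exact orderOf_injective (MulAut.conj g).toMonoidHom (MulAut.conj g).injective h
  · rintro _ ⟨a, ha, rfl⟩ hca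
    rw [hc a ha ((MulAut.conj g).injective (by
      rw [map_mul, map_mul]; exact hca.eq)), map_one]

theorem sec_sl_of_alt (s : Sec K Q (alternatingGroup (Fin 5))) :
    ∃ (F : Type) (_ : Field F) (_ : Fintype F), Fintype.card F = 4 ∧
      Sec K Q (Matrix.SpecialLinearGroup (Fin 2) F) := by
  obtain ⟨e⟩ := Cl.psl2_four_equiv_alt Cl.natCard_GF4
  obtain ⟨e'⟩ := CIT.CA.psl_equiv_sl (n := 2) Cl.card_GF4
  exact ⟨Cl.GF4, inferInstance, inferInstance, Cl.card_GF4, SL.sec_congr s (e.symm.trans e')⟩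

theorem sec_sl_of_psl {F : Type} [Field F] [Fintype F] (hF : Fintype.card F = 8)
    (s : Sec K Q (Matrix.ProjectiveSpecialLinearGroup (Fin 2) F)) :
    Sec K Q (Matrix.SpecialLinearGroup (Fin 2) F) := by
  obtain ⟨e⟩ := CIT.CA.psl_equiv_sl (n := 3) hF
  exact SL.sec_congr s e

end Cfsg.Agent.K3P
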