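import Mathlib
import Cfsg.Agent.K3P.Defs
import Cfsg.Agent.K3P.Bas
import Cfsg.Agent.GT.CoprimeProd
import Cfsg.Agent.GT.PConstrained
import Cfsg.Agent.Ch.Burnside

/-! The maximal 2-local subgroup above a nonsolvable 2-local subgroup and its simple section. -/

set_option autoImplicit false
open Cfsg Subgroup

namespace Cfsg.Agent.K3P

universe u
variable {G : Type u} [Group G] [Finite G] {p : ℕ}

namespace Str

theorem ex_ord {H : Subgroup G} {r : ℕ} (hr : r.Prime) (h : r ∣ Nat.card H) :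
    ∃ x ∈ H, orderOf x = r := by
  have := Fact.mk hr
  obtain ⟨x, hx⟩ := exists_prime_orderOf_dvd_card' (G := H) r h
  exact ⟨x, x.2, by rw [← hx, Subgroup.orderOf_coe]⟩

theorem mem_norm {H : Subgroup G} {g : G} (h : ∀ x ∈ H, g * x * g⁻¹ ∈ H) :
    g ∈ normalizer (H : Set G) := mem_normalizer_fintype (S := (H : Set G)) h

theorem norm_cyc {U : Subgroup G} (hU : IsCyclic U) {x : G}
    (hx : x ∈ U) : normalizer (U : Set G) ≤ normalizer (zpowers x : Set G) := by
  intro g hg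
  obtain ⟨⟨u, hu⟩, h⟩ := IsCyclic.exists_generator (α := U)
  obtain ⟨a, ha⟩ := mem_zpowers_iff.1 (h ⟨x, hx⟩)
  obtain ⟨b, hb⟩ := mem_zpowers_iff.1 (h ⟨_, (mem_normalizer_iff.1 hg u).1 hu⟩)
  replace ha : u ^ a = x := congrArg Subtype.val ha
  replace hb : u ^ b = g * u * g⁻¹ := congrArg Subtype.val hb
  have e : g * x * g⁻¹ = x ^ b := by
    rw [← ha, ← conj_zpow, ← hb, ← zpow_mul, ← zpow_mul, mul_comm]
  refine mem_norm fun w hw => ?_
  obtain ⟨c, rfl⟩ := mem_zpowers_iff.1 hw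
  rw [← conj_zpow, e]
  exact zpow_mem (zpow_mem (mem_zpowers x) b) c

theorem solv_ext {H : Type*} [Group H] (N : Subgroup H) [N.Normal]
    (h1 : Group.IsSolvable N) (h2 : Group.IsSolvable (H ⧸ N)) : Group.IsSolvable H :=
  Group.isSolvable_of_ker_le_range N.subtype (QuotientGroup.mk' N) (by simp)

omit [Finite G] in
theorem solv_sub {N H : Subgroup G} (h : N ≤ H) (h1 : Group.IsSolvable N) :
    Group.IsSolvable (N.subgroupOf H) :=
  Group.isSolvable_of_surjective (f := (subgroupOfEquivOfLe h).symm.toMonoidHom)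
    (subgroupOfEquivOfLe h).symm.surjective

end Str

open Str

theorem Th.key (h : Th G p) {T H N : Subgroup G} (hT : IsPGroup 2 T) (h1 : T ≠ ⊥)
    (hH : H ≤ normalizer (T : Set G)) (hN : N ≤ H) (hn : H ≤ normalizer (N : Set G))
    (h2 : ¬ IsPGroup 2 N) {x : G} (hx : x ∈ H) (ho : orderOf x = p) : x ∈ N := by
  have hp := h.shape.prime
  by_cases hd : p ∣ Nat.card N
  · obtain ⟨x', hx', ho'⟩ := ex_ord hp hd
    obtain ⟨g, hg, e⟩ := h.conj_p ho' ho (hN hx') hx
    have : x ∈ zpowers x' ^ᶜ g := e ▸ mem_zpowers x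
    obtain ⟨w, hw, rfl⟩ := GT.mem_map_conj_iff_exists.1 this
    exact GT.conj_mem_of_mem_normalizer (hn hg) (zpowers_le.2 hx' hw)
  exfalso
  have : Fact (Nat.Prime 3) := ⟨Nat.prime_three⟩
  obtain ⟨i, j, e⟩ := h.shape.of_not_dvd (card_subgroup_dvd_card N) hd
  have h3 : 3 ∣ Nat.card N := by
    rcases i with _ | i
    · exact absurd (IsPGroup.of_card (n := j) (by rw [e]; simp)) h2
    · rw [e, pow_succ]; exact Dvd.dvd.mul_right (Dvd.intro_left _ rfl) _
  obtain ⟨P, PN, P3, Pi, xP⟩ := GT.CopAct.exists_invariant_sylowIn (A := zpowers x) (K := N)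
    (zpowers_le.2 (hn hx))
    (by rw [Nat.card_zpowers, ho]; exact (Nat.Prime.coprime_iff_not_dvd hp).2 hd)
    (Or.inl inferInstance) 3
  have hc := h.cyc3 hT h1 P3 (PN.trans (hN.trans hH))
  have h3P : 3 ∣ Nat.card P := by
    have e1 := GT.PG.relIndex_mul_card PN
    rw [← e1] at h3
    exact ((Nat.Prime.dvd_mul Nat.prime_three).1 h3).resolve_left Pi
  obtain ⟨y, yP, yo⟩ := ex_ord Nat.prime_three h3P
  have hxy : x ∈ normalizer (zpowers y : Set G) := norm_cyc hc yP (xP (mem_zpowers x))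
  have k := card_mod_cn hp ho hxy
  have p5 := h.shape.five_le
  have hb : zpowers y ⊓ Cn x = ⊥ := eq_bot_iff.2 fun v hv => by
    refine h.eq_one ho (mem_Cn.1 hv.2) fun hd => ?_
    have := Nat.le_of_dvd (by norm_num) (hd.trans (yo ▸ orderOf_dvd_of_mem_zpowers hv.1))
    omega
  rw [hb, card_bot, Nat.card_zpowers, yo, Nat.mod_eq_of_lt (by omega),
    Nat.mod_eq_of_lt (by omega)] at k
  omega

theorem Th.exists_cf (h : Th G p) {N : Subgroup G} (hN : IsTwoLocal N) (hs : ¬ Group.IsSolvable N) :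
    ∃ M Q K : Subgroup G, Cf p M Q K ∧ ∃ (L : Type u) (_ : Group L) (_ : Finite L)
      (_ : IsSimpleGroup L), ¬ IsMulCommutative L ∧ p ∣ Nat.card L ∧ Sec K Q L := by
  have hp := h.shape.prime
  have p5 := h.shape.five_le
  have : Fact (Nat.Prime 2) := ⟨Nat.prime_two⟩
  obtain ⟨M, NM, hM⟩ := Finite.exists_le_maximal (p := fun X : Subgroup G => IsTwoLocal X) hN
  obtain ⟨T0, T2, T1, eM⟩ := hM.1
  set Q := pCoreOf 2 M with hQ
  have Q2 : IsPGroup 2 Q := GT.isPGroup_pCoreOf 2 M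
  have QM : Q ≤ M := GT.pCoreOf_le M
  have T0Q : T0 ≤ Q := GT.le_pCoreOf (eM ▸ le_normalizer) eM.le T2
  have Q1 : Q ≠ ⊥ := fun e => T1 (eq_bot_iff.2 (e ▸ T0Q))
  have mx : ∀ X : Subgroup G, IsPGroup 2 X → X ≠ ⊥ → M ≤ normalizer (X : Set G) →
      normalizer (X : Set G) = M := fun X a b c => le_antisymm (hM.2 ⟨X, a, b, rfl⟩ c) c
  have nQ : normalizer (Q : Set G) = M := mx Q Q2 Q1 (GT.le_normalizer_pCoreOf M)
  have cen : centralizer (Q : Set G) ≤ Q := by
    have k := h.c2.2 Q Q2 Q1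
    rw [nQ] at k
    have k' := GT.charP_iff_pCoreOf.1 k
    exact (le_inf ((centralizer_le_normalizer _).trans nQ.le) le_rfl).trans k'
  have big : ∀ N : Subgroup G, N ≤ M → M ≤ normalizer (N : Set G) → ¬ N ≤ Q →
      ∀ x ∈ M, orderOf x = p → x ∈ N := fun N a b c x hx ho =>
    h.key Q2 Q1 nQ.ge a b (fun k => c (GT.le_pCoreOf a b k)) hx ho
  have sM : ¬ Group.IsSolvable M := fun k =>
    hs (Group.isSolvable_of_isSolvable_injective (f := inclusion NM) (inclusion_injective NM))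
  have pM : p ∣ Nat.card M := by
    by_contra k
    obtain ⟨i, j, e⟩ := h.shape.of_not_dvd (card_subgroup_dvd_card M) k
    exact sM (Ch.burnside_isSolvable_of_card_eq Nat.prime_three Nat.prime_two e)
  obtain ⟨x, xM, xo⟩ := ex_ord hp pM
  have nq : ∀ w : G, orderOf w = p → w ∉ Q := fun w ho hw => by
    have := h.fpf ho (Commute.refl w) (tw_of_mem Q2 hw)
    rw [this, orderOf_one] at ho
    omega
  obtain ⟨K, -, hK⟩ := exists_minimal_le_of_wellFoundedLT (fun X : Subgroup G =>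
    Q ≤ X ∧ ¬ X ≤ Q ∧ X ≤ M ∧ M ≤ normalizer (X : Set G))
    M ⟨QM, fun k => nq x xo (k xM), le_rfl, le_normalizer⟩
  obtain ⟨QK, KQ, KM, nK⟩ := hK.1
  have xK : x ∈ K := big K KM nK KQ x xM xo
  have hn : (Q.subgroupOf K).Normal :=
    (normal_subgroupOf_iff_le_normalizer QK).2 (KM.trans nQ.ge)
  have sec : Sec K Q (K ⧸ Q.subgroupOf K) :=
    ⟨QuotientGroup.mk' _, QuotientGroup.mk'_surjective _, fun k => by
      rw [QuotientGroup.mk'_apply, QuotientGroup.eq_one_iff, mem_subgroupOf]⟩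
  set Ps : Subgroup G := closure {w | w ∈ M ∧ orderOf w = p} with hPs
  have nP : M ≤ normalizer (Ps : Set G) := fun g hg => mem_norm fun w hw => by
    have : Ps ^ᶜ g ≤ Ps := by
      rw [hPs, MonoidHom.map_closure]
      refine closure_mono ?_
      rintro _ ⟨v, hv, rfl⟩
      refine ⟨mul_mem (mul_mem hg hv.1) (inv_mem hg), ?_⟩
      rw [← hv.2]
      exact orderOf_injective (MulAut.conj g).toMonoidHom (MulAut.conj g).injective v
    exact GT.map_conj_le_iff_forall.1 this w hw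
  have nt : Nontrivial (K ⧸ Q.subgroupOf K) := by
    refine ⟨⟨QuotientGroup.mk ⟨x, xK⟩, 1, fun e => nq x xo ?_⟩⟩
    exact mem_subgroupOf.1 ((QuotientGroup.eq_one_iff _).1 e)
  have simp : IsSimpleGroup (K ⧸ Q.subgroupOf K) := by
    refine ⟨fun N' hN' => ?_⟩
    by_cases e0 : N' = ⊥
    · exact Or.inl e0
    right
    set N1 : Subgroup G := (N'.comap (QuotientGroup.mk' _)).map K.subtype with hN1
    have N1K : N1 ≤ K := map_subtype_le _
    have mem : ∀ k : K, (k : G) ∈ N1 ↔ (QuotientGroup.mk k : K ⧸ Q.subgroupOf K) ∈ N' := fun k => by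
      rw [hN1]
      constructor
      · rintro ⟨k', hk', e⟩
        obtain rfl : k' = k := Subtype.ext e
        exact hk'
      · exact fun hk => ⟨k, hk, rfl⟩
    have QN : Q ≤ N1 := fun q hq => (mem ⟨q, QK hq⟩).2 (by
      rw [(QuotientGroup.eq_one_iff _).2 (mem_subgroupOf.2 hq)]; exact one_mem _)
    have nN : K ≤ normalizer (N1 : Set G) := fun g hg => mem_norm fun w hw => by
      have k := (mem ⟨w, N1K hw⟩).1 hw
      have k' := hN'.conj_mem _ k (QuotientGroup.mk (⟨g, hg⟩ : K))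
      rw [← QuotientGroup.mk_inv, ← QuotientGroup.mk_mul, ← QuotientGroup.mk_mul] at k'
      exact (mem _).2 k'
    have n2 : ¬ IsPGroup 2 N1 := fun k => by
      have l : N1 ≤ Q := (GT.le_pCoreOf N1K nN k).trans (GT.pCoreOf_le_pCoreOf KM nK)
      refine e0 (eq_bot_iff.2 fun a ha => ?_)
      obtain ⟨k, rfl⟩ := QuotientGroup.mk_surjective a
      exact (QuotientGroup.eq_one_iff _).2 (mem_subgroupOf.2 (l ((mem k).2 ha)))
    have PN : Ps ≤ N1 := (closure_le _).2 fun w hw =>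
      h.key Q2 Q1 (KM.trans nQ.ge) N1K nN n2 (big K KM nK KQ w hw.1 hw.2) hw.2
    have l1 : Q ⊔ Ps ≤ N1 := sup_le QN PN
    have l2 : K ≤ Q ⊔ Ps := hK.2 ⟨le_sup_left,
      fun k => nq x xo (k (mem_sup_right (subset_closure ⟨xM, xo⟩))),
      l1.trans (N1K.trans KM), GT.PG.le_normalizer_sup nQ.ge nP⟩ (l1.trans N1K)
    refine eq_top_iff.2 fun a _ => ?_
    obtain ⟨k, rfl⟩ := QuotientGroup.mk_surjective a
    exact (mem k).1 (l1 (l2 k.2))
  have pK : p ∣ Nat.card K := xo ▸ K.orderOf_dvd_natCard xK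
  refine ⟨M, Q, K, ⟨Q2, Q1, QK, KM, nK, nQ, mx, rfl, cen, big⟩, K ⧸ Q.subgroupOf K,
    inferInstance, inferInstance, simp, fun hc => sM ?_, ?_, sec⟩
  · have sQ : Group.IsSolvable Q := by have := Q2.isNilpotent; infer_instance
    have sK : Group.IsSolvable K := solv_ext (Q.subgroupOf K) (solv_sub QK sQ)
      (Group.isSolvable_of_comm fun a b => hc.is_comm.comm a b)
    have hn' : (K.subgroupOf M).Normal := (normal_subgroupOf_iff_le_normalizer KM).2 nK
    refine solv_ext (K.subgroupOf M) (solv_sub KM sK) ?_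
    have e1 := GT.PG.relIndex_mul_card KM
    have d1 : K.relIndex M ∣ Nat.card G :=
      (Dvd.intro _ e1).trans (card_subgroup_dvd_card M)
    have d2 : ¬ p ∣ K.relIndex M := fun k =>
      h.shape.not_sq hp p5 (((Nat.mul_dvd_mul k pK).trans e1.dvd).trans (card_subgroup_dvd_card M))
    obtain ⟨i, j, e⟩ := h.shape.of_not_dvd d1 d2
    exact Ch.burnside_isSolvable_of_card_eq Nat.prime_three Nat.prime_two e
  · rw [sec.card QK] at pK
    refine ((Nat.Prime.dvd_mul hp).1 pK).resolve_left fun k => ?_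
    obtain ⟨w, hw, wo⟩ := ex_ord hp k
    exact nq w wo hw

end Cfsg.Agent.K3P
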