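import Mathlib
import Cfsg.Agent.K3P.Bas
import Cfsg.Agent.FT.Wielandt
import Cfsg.Agent.FT.BG3_2
import Cfsg.Agent.GT.PiGroups
import Cfsg.Agent.GT.PGroupElemAb

/-! The case `M / Q = GL(3, 2)`: the structure `CB`. -/

set_option autoImplicit false
open Cfsg Subgroup

namespace Cfsg.Agent.K3P

variable {G : Type*} [Group G] [Finite G] {p : ℕ} {M Q K : Subgroup G}

theorem Th.cube (h : Th G p) {x y : G} (hx : orderOf x = p) (hy : orderOf y = 3)
    (yx : y ∈ normalizer (zpowers x : Set G)) {X : Subgroup G} (hX : IsPGroup 2 X)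
    (h1 : x ∈ normalizer (X : Set G)) (h2 : y ∈ normalizer (X : Set G)) :
    Nat.card X = Nat.card (X ⊓ Cn y : Subgroup G) ^ 3 := by
  have hp := h.shape.prime
  have h5 := h.shape.five_le
  have fr := FT.isFrob_of_semiregular (zpowers_le.2 yx) (fun r hr r1 => eq_bot_iff.2 fun k hk => by
      by_contra k1
      refine r1 (h.eq_one ((hp.eq_one_or_self_of_dvd _ (hx ▸ orderOf_dvd_of_mem_zpowers hk.1)).resolve_left
        (mt orderOf_eq_one_iff.1 k1)) (mem_Cn.1 hk.2).symm fun d => ?_)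
      have := Nat.le_of_dvd (by norm_num) (d.trans (hy ▸ orderOf_dvd_of_mem_zpowers hr))
      omega)
    (fun e => by rw [zpowers_eq_bot.1 e, orderOf_one] at hx; omega)
    (fun e => by rw [zpowers_eq_bot.1 e, orderOf_one] at hy; omega)
  have e := GT.card_sup_mul_card_inf_of_le_normalizer (zpowers_le.2 yx)
  rw [sup_comm, Nat.card_zpowers, Nat.card_zpowers, hx, hy] at e
  obtain ⟨n, hn⟩ := IsPGroup.iff_card.1 hX
  have := hX.isNilpotent
  have k := (FT.Frobenius_Wielandt_fixpoint fr (sup_le (zpowers_le.2 h1) (zpowers_le.2 h2))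
    (hn ▸ (Nat.coprime_two_left.2 (Odd.of_dvd_nat (Odd.mul (by decide) (hp.odd_of_ne_two (by omega)))
      (Dvd.intro _ e))).pow_left n) inferInstance).2.2 (eq_bot_iff.2 fun v hv =>
        h.fpf hx (hv.2 x (mem_zpowers x)) (tw_of_mem hX hv.1))
  rwa [Nat.card_zpowers, hy, zpowers_eq_closure, centralizer_closure] at k

theorem ToB.ex {H : Subgroup G} {r : ℕ} (hr : r.Prime) (h : r ∣ Nat.card H) : ∃ x ∈ H, orderOf x = r := by
  have := Fact.mk hr
  obtain ⟨x, hx⟩ := exists_prime_orderOf_dvd_card' r h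
  exact ⟨x, x.2, (orderOf_coe x).trans hx⟩

theorem Cf.toB (h : Th G p) (c : Cf p M Q K) {n : ℕ} (hn : n = 168 ∨ n = 6048 ∨ n = 5616)
    (hK : Nat.card K = Nat.card Q * n) : p = 7 ∧ ∃ (V : Subgroup G) (x y : G), CB M Q V x y := by
  have hp := h.shape.prime
  have d : n ∣ Nat.card G := (Dvd.intro_left _ hK.symm).trans (card_subgroup_dvd_card K)
  obtain ⟨m, rfl, hm⟩ : ∃ m, n = p * m ∧ m % p = 3 := by
    rcases hn with rfl | rfl | rfl
    · obtain rfl := h.shape.eq_of_dvd (r := 7) (by norm_num) (by norm_num) (Dvd.dvd.trans (by norm_num) d)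
      exact ⟨24, rfl, rfl⟩
    · obtain rfl := h.shape.eq_of_dvd (r := 7) (by norm_num) (by norm_num) (Dvd.dvd.trans (by norm_num) d)
      exact ⟨864, rfl, rfl⟩
    · obtain rfl := h.shape.eq_of_dvd (r := 13) (by norm_num) (by norm_num) (Dvd.dvd.trans (by norm_num) d)
      exact ⟨432, rfl, rfl⟩
  obtain ⟨x, xK, hx⟩ := ToB.ex hp (hK ▸ Dvd.dvd.mul_left (Dvd.intro m rfl) _)
  obtain ⟨e, k, e1, e2, e3, e4⟩ := h.norm_card hx xK
  have xM := c.KM xK
  obtain rfl : e = 3 := by
    have h5 := h.shape.five_le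
    have e5 : Nat.card Q * m = e * k := Nat.eq_of_mul_eq_mul_left hp.pos (by rw [← mul_assoc p e, ← e3, hK]; ring)
    have e6 := congrArg (· % p) e5
    have := Nat.le_of_dvd (by omega) e2
    simp only [Nat.mul_mod (Nat.card Q), Nat.mul_mod e, h.card_mod c.two hx (c.nQ.ge xM), hm, e4, one_mul,
      mul_one, Nat.mod_mod] at e6
    rwa [Nat.mod_eq_of_lt (by omega), Nat.mod_eq_of_lt (by omega), eq_comm] at e6
  obtain ⟨y, hy, yo⟩ := ToB.ex Nat.prime_three (e1 ▸ Dvd.intro_left p rfl)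
  obtain ⟨V, v1, v2, v3, v4⟩ := exists_omega c.two c.ne
  have nV := c.max V (two_of_el v3) v2 (c.nQ ▸ v4)
  have c8 : Nat.card V = 8 := by
    have e5 := h.cube hx yo hy.2 (two_of_el v3) (nV.ge xM) (nV.ge (c.KM hy.1))
    have e6 := h.card_cn_le v3 yo
    have e7 := (one_lt_card_iff_ne_bot V).2 v2
    generalize Nat.card (V ⊓ Cn y : Subgroup G) = a at e5 e6
    interval_cases a <;> omega
  obtain rfl : p = 7 := by
    have e5 := h.card_mod (two_of_el v3) hx (nV.ge xM)
    rw [c8] at e5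
    rcases h.shape.1 with rfl | rfl | rfl | rfl <;> omega
  have cV : centralizer (V : Set G) = Q := by
    refine le_antisymm ?_ fun q hq v hv => (((v1 v).1 hv).2.1 q hq).symm
    by_contra k
    have := c.big _ ((centralizer_le_normalizer _).trans nV.le)
      (nV ▸ GT.normalizer_le_normalizer_set_centralizer _) k x xM hx
    exact v2 (eq_bot_iff.2 fun v hv => h.fpf hx (this v hv).symm (tw_of_mem (two_of_el v3) hv))
  have cM : Nat.card M ∣ Nat.card Q * 168 := by
    have e5 := GT.PG.card_mulAut_of_elementary (n := 3) v3.1 (fun a => Subtype.ext (v3.2 a a.2)) c8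
    rw [← nV, ← cV, show 168 = Nat.card (MulAut V) from e5.symm ▸ by decide,
      ← V.normalizerMonoidHom.ker.card_mul_index, index_ker, normalizerMonoidHom_ker,
      Nat.card_congr (subgroupOfEquivOfLe (centralizer_le_normalizer _)).toEquiv]
    exact Nat.mul_dvd_mul_left _ (card_subgroup_dvd_card _)
  have d1 := hK ▸ card_dvd_of_le c.KM
  have d2 := Nat.le_of_dvd (by norm_num) (Nat.dvd_of_mul_dvd_mul_left Nat.card_pos (d1.trans cM))
  refine ⟨rfl, V, x, y, c.two, c.QK.trans c.KM, c.nQ, v1, nV, cV, c8, ?_, c.core, c.cen, c.big, xM, c.KM hy.1,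
    hx, yo, hy.2⟩
  rw [show 7 * m = 168 by omega] at d1
  rw [mul_comm, Nat.dvd_antisymm cM d1]

end Cfsg.Agent.K3P
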